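import Cfsg.Agent.H198.ElPsu.Poly
import Cfsg.Agent.H709.GmnPSU

/-!
# Elliptic configurations in `PSU_p(q)`: all eigenvalues different (helper198, for S4114)
-/

set_option autoImplicit false
set_option linter.unusedSectionVars false

namespace Cfsg.Agent.H198.ElPsu

open Subgroup Matrix Polynomial Cfsg Cfsg.Agent.H520
open Cfsg.Agent.LieClassical.HermBasic Cfsg.Agent.LieClassical.HermSiegel
open Cfsg.Agent.ClassicalGeometry.PSUAutCount (gm gm_mul gm_one gm_mul_inv gm_inv_mul semiConj toAut toAut_pr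
  herm_gm act_semiConj gm_inj)
open Cfsg.Agent.ClassicalGeometry.PSUAutBasic (pr pr_surjective pr_eq_one_iff)
open Cfsg.Agent.ClassicalGeometry.GUBasic (guDiag guPerm)
open Cfsg.Agent.Schreier.PSU (f₁ f₁_eq_conj)
open Cfsg.Agent.H183.OutPSU (exists_SU_of_det)

theorem prod_eq {F : Type*} [Field F] {p : ℕ} {d : Fin p → F} (hp0 : 0 < p) (hd : ∀ i, d i ^ p = 1)
    (hinj : Function.Injective d) : ∏ i, (X - C (d i) : F[X]) = X ^ p - 1 := by
  have h1 : ∏ i, (X - C (d i) : F[X]) ∣ X ^ p - 1 := by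
    apply Finset.prod_dvd_of_coprime
    · intro i _ j _ hij
      exact pairwise_coprime_X_sub_C hinj hij
    · intro i _
      rw [dvd_iff_isRoot, IsRoot.def]
      simp [hd]
  have hm : (∏ i, (X - C (d i) : F[X])).Monic := monic_prod_of_monic _ _ fun i _ => monic_X_sub_C _
  have hm' : (X ^ p - 1 : F[X]).Monic := by
    have := monic_X_pow_sub_C (1 : F) hp0.ne'
    rwa [C_1] at this
  refine (Polynomial.eq_of_monic_of_dvd_of_natDegree_le hm hm' h1 ?_).symm
  rw [natDegree_prod_of_monic _ _ fun i _ => monic_X_sub_C _]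
  have h2 : (X ^ p - 1 : F[X]).natDegree = p := by
    have := natDegree_X_pow_sub_C (n := p) (r := (1 : F))
    rwa [C_1] at this
  rw [h2]
  simp

variable {F : Type} [Field F] [Fintype F] {q n : ℕ}

theorem gm_pow (A : GU n F q) (k : ℕ) : gm (A ^ k) = gm A ^ k := by
  induction k with
  | zero => rw [pow_zero, pow_zero, gm_one]
  | succ k ih => rw [pow_succ, pow_succ, gm_mul, ih]

theorem det_pow_succ (hF : Fintype.card F = q ^ 2) (M : GU n F q) : (gm M).det ^ (q + 1) = 1 :=
  Cfsg.Agent.LieClassical.GUOrder.det_mul_frob_det hF (gm M) (fun u v => herm_gm M u v)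

/-- determinant correction by a diagonal matrix -/
theorem exists_det_corr (hF : Fintype.card F = q ^ 2) (hn : 0 < n) (M : GU n F q) :
    ∃ (E : GU n F q) (a : Fin n → F), gm E = diagonal a ∧ (gm (M * E)).det = 1 := by
  have h1 := det_pow_succ hF M
  have h0 : (gm M).det ≠ 0 := by
    intro h
    rw [h, zero_pow (by omega)] at h1
    exact zero_ne_one h1
  let i0 : Fin n := ⟨0, hn⟩
  let a : Fin n → F := fun i => if i = i0 then ((gm M).det)⁻¹ else 1
  have ha : ∀ i, a i ^ (q + 1) = 1 := by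
    intro i
    by_cases hi : i = i0
    · simp only [a, if_pos hi, inv_pow, h1, inv_one]
    · simp only [a, if_neg hi, one_pow]
  refine ⟨guDiag q a ha, a, rfl, ?_⟩
  have h2 : gm (guDiag q a ha : GU n F q) = diagonal a := rfl
  rw [gm_mul, det_mul, h2, det_diagonal]
  have h3 : ∏ i, a i = ((gm M).det)⁻¹ := by
    simp only [a]
    rw [Finset.prod_ite_eq' Finset.univ i0 (fun _ => ((gm M).det)⁻¹), if_pos (Finset.mem_univ _)]
  rw [h3, mul_inv_cancel₀ h0]

theorem diag_full (hF : Fintype.card F = q ^ 2) {α : MulAut (PSU n F q)} (h : Cfg α) {p : ℕ}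
    (hp : p.Prime) (hp2 : p ≠ 2) (hpF : (p : F) ≠ 0) {D : GU n F q} {d : Fin n → F} (hD : gm D = diagonal d)
    (hd : ∀ i, d i ^ p = 1) (hinj : Function.Injective d) (hnp : n = p) (hy : toAut D 1 ∈ zpowers α)
    (hy1 : toAut D 1 ≠ 1) : False := by
  subst hnp
  have hDp : gm D ^ n = 1 := by
    rw [hD, diagonal_pow, ← diagonal_one]
    congr 1
    funext i
    exact hd i
  have hD2 : gm (D ^ 2) = diagonal (fun i => d i ^ 2) := by
    rw [gm_pow, hD, diagonal_pow]
    rfl
  have hinj2 : Function.Injective fun i => d i ^ 2 := by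
    intro i j hij
    have hij' : d i ^ 2 = d j ^ 2 := hij
    apply hinj
    obtain ⟨k, hk⟩ := hp.odd_of_ne_two hp2
    have h1 : d i ^ n = d j ^ n := by rw [hd, hd]
    rw [hk, pow_succ, pow_mul, pow_succ, pow_mul, hij'] at h1
    have h0 : (d j ^ 2) ^ k ≠ 0 := by
      apply pow_ne_zero
      apply pow_ne_zero
      intro h0
      have := hd j
      rw [h0, zero_pow hp.ne_zero] at this
      exact zero_ne_one this
    exact mul_left_cancel₀ h0 h1
  have hc : (gm D).charpoly = (gm (D ^ 2)).charpoly := by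
    rw [hD, hD2, charpoly_diagonal, charpoly_diagonal, prod_eq hp.pos hd hinj,
      prod_eq hp.pos (fun i => by rw [← pow_mul, mul_comm, pow_mul, hd, one_pow]) hinj2]
  obtain ⟨M, hM⟩ := exists_gu_conj hF hpF hDp (by rw [gm_pow, ← pow_mul, mul_comm, pow_mul, hDp, one_pow]) hc
  obtain ⟨E, a, hE, hdet⟩ := exists_det_corr hF hp.pos M
  have hED : E * D = D * E := by
    apply gm_inj
    rw [gm_mul, gm_mul, hE, hD, diagonal_mul_diagonal, diagonal_mul_diagonal]
    congr 1
    funext i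
    exact mul_comm _ _
  obtain ⟨g, hg⟩ := exists_SU_of_det _ hdet
  have h1 : f₁ (M * E) = MulAut.conj (pr n F q g) := f₁_eq_conj _ g hg
  have h2 : MulAut.conj (pr n F q g) * toAut D 1 * (MulAut.conj (pr n F q g))⁻¹ = toAut D 1 ^ (2 : ℤ) := by
    rw [← h1]
    change f₁ (M * E) * f₁ D * (f₁ (M * E))⁻¹ = f₁ D ^ (2 : ℤ)
    rw [mul_inv_eq_iff_eq_mul, ← map_zpow, ← map_mul, ← map_mul]
    congr 1
    rw [mul_assoc, hED, ← mul_assoc, hM, mul_assoc, zpow_ofNat]
  have h3 := h.ccp.eq_zpow_aut h.center_bot hy h2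
  apply hy1
  have h4 : toAut D 1 ^ (2 : ℤ) = toAut D 1 * toAut D 1 := by rw [zpow_ofNat, pow_two]
  rw [h4] at h3
  exact mul_eq_left.1 h3

end Cfsg.Agent.H198.ElPsu
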