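import Cfsg.Agent.H198.ElPsu.Two
import Cfsg.Agent.H372.FxPsuA
import Cfsg.Agent.H202.Psu

/-!
# Elliptic configurations in `PSU_n(q)`: diagonal elements with a repeated eigenvalue (helper198, for S4114)
-/

set_option autoImplicit false
set_option linter.unusedSectionVars false

namespace Cfsg.Agent.H198.ElPsu

open Subgroup Matrix Cfsg Cfsg.Agent.H520
open Cfsg.Agent.LieClassical.HermBasic Cfsg.Agent.LieClassical.HermSiegel
open Cfsg.Agent.ClassicalGeometry.PSUAutCount (gm gm_mul gm_one gm_mul_inv gm_inv_mul semiConj toAut toAut_pr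
  herm_gm act_semiConj gm_inj)
open Cfsg.Agent.ClassicalGeometry.PSUAutBasic (pr pr_surjective pr_eq_one_iff)
open Cfsg.Agent.Phan (ext ext_injective extM extM_mulVec extM_mulVec_of_notMem)

variable {F : Type} [Field F] [Fintype F] {q n : ℕ}

/-- a linear automorphism fixes the images of the matrices commuting with it -/
theorem toAut_fix_of_comm {A : GU n F q} {g : SU n F q} (h : gm A * mat g = mat g * gm A) :
    toAut A 1 (pr n F q g) = pr n F q g := by
  have h1 : toAut A 1 (pr n F q g) = pr n F q (semiConj A 1 g) := toAut_pr A 1 _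
  rw [h1]
  congr 1
  apply mat_injective
  rw [H202.Psu.mat_semiConj_one, h, mul_assoc, gm_mul_inv, mul_one]

theorem extM_comm_diag {m : ℕ} {e : Fin m → Fin n} (he : Function.Injective e) {d : Fin n → F}
    (hd : ∀ i j, d (e i) = d (e j)) (A : Matrix (Fin m) (Fin m) F) :
    diagonal d * extM e A = extM e A * diagonal d := by
  ext a b
  rw [diagonal_mul, mul_diagonal]
  have key : extM e A a b = 0 ∨ d a = d b := by
    have h1 : extM e A a b = (extM e A *ᵥ Pi.single b 1) a := by
      rw [mulVec_single_one]
      rfl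
    rw [h1]
    by_cases ha : ∃ i, a = e i
    · obtain ⟨i, rfl⟩ := ha
      by_cases hb : ∃ j, b = e j
      · obtain ⟨j, rfl⟩ := hb
        exact Or.inr (hd i j)
      · push Not at hb
        left
        rw [extM_mulVec he]
        have h2 : (Pi.single b (1 : F) : Fin n → F) ∘ e = 0 := by
          funext k
          rw [Function.comp_apply, Pi.single_eq_of_ne (hb k).symm]
          rfl
        rw [h2, mulVec_zero]
        rfl
    · push Not at ha
      rw [extM_mulVec_of_notMem ha]
      by_cases hab : a = b
      · exact Or.inr (by rw [hab])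
      · left
        exact Pi.single_eq_of_ne hab 1
  rcases key with h | h
  · rw [h, mul_zero, zero_mul]
  · rw [h, mul_comm]

theorem diag_rep (hF : Fintype.card F = q ^ 2) (hn : 3 ≤ n) (h4 : 4 ≤ q) {r : ℕ} [hr : Fact r.Prime]
    [hcr : CharP F r] {α : MulAut (PSU n F q)} (h : Cfg α) (hE : EL r α) {D : GU n F q} {d : Fin n → F}
    (hD : gm D = diagonal d) (hy : toAut D 1 ∈ zpowers α) (hy1 : toAut D 1 ≠ 1) {i j : Fin n} (hij : i ≠ j)
    (hd : d i = d j) : False := by
  obtain ⟨l, hl, hlr⟩ := exists_unip hF r
  have he : Function.Injective ![i, j] := by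
    intro a b hab
    fin_cases a <;> fin_cases b
    · rfl
    · exact absurd hab hij
    · exact absurd hab hij.symm
    · rfl
  obtain ⟨x, hx⟩ : ∃ x : Fin n, ∀ k, x ≠ ![i, j] k := by
    by_contra hcon
    push Not at hcon
    have h1 : Function.Surjective ![i, j] := fun x => by
      obtain ⟨k, hk⟩ := hcon x
      exact ⟨k, hk.symm⟩
    have h2 := Fintype.card_le_of_surjective _ h1
    rw [Fintype.card_fin, Fintype.card_fin] at h2
    omega
  have hinj := H372.FxU.inj_block hF hn he hx
  refine false_of_qs h hE hy hy1 (H880.Cl.quasi_two hF h4) hl hlr ((pr n F q).comp (ext hF ![i, j] he))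
    ⟨l, fun h1 => hl ?_⟩ (fun g => ?_)
  · have h2 : l = 1 := hinj (h1.trans (map_one _).symm)
    rw [h2]
    exact one_mem _
  · refine toAut_fix_of_comm ?_
    rw [hD]
    refine extM_comm_diag he (fun a b => ?_) _
    fin_cases a <;> fin_cases b
    · rfl
    · exact hd
    · exact hd.symm
    · rfl

end Cfsg.Agent.H198.ElPsu
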