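import Cfsg.Agent.H198.ElPsu.DiagFull

/-!
# Elliptic configurations in `PSU_n(q)`: different eigenvalues, `n < p` (helper198, for S4114)
-/

set_option autoImplicit false
set_option linter.unusedSectionVars false

namespace Cfsg.Agent.H198.ElPsu

open Subgroup Matrix Cfsg Cfsg.Agent.H520
open Cfsg.Agent.LieClassical.HermBasic Cfsg.Agent.LieClassical.HermSiegel
open Cfsg.Agent.ClassicalGeometry.PSUAutCount (gm gm_mul gm_one gm_mul_inv gm_inv_mul semiConj toAut toAut_pr
  herm_gm act_semiConj gm_inj eq_of_toAut_eq)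
open Cfsg.Agent.ClassicalGeometry.PSUAutBasic (pr pr_surjective pr_eq_one_iff)
open Cfsg.Agent.ClassicalGeometry.GUBasic (guDiag guPerm)
open Cfsg.Agent.Schreier.PSU (f₁ f₂ mapGU f₁_eq_conj conj_field toAut_eq)
open Cfsg.Agent.CpAutU.Desc (toAut_mul toAut_one gm_mapGU' mapGU_one)
open Cfsg.Agent.H183.OutPSU (exists_SU_of_det)
open Cfsg.Agent.H709.Mono
open Cfsg.Agent.H709.GmnPSU (isMono_guPerm)

variable {F : Type} [Field F] [Fintype F] {q n : ℕ}

/-- conjugates of linear automorphisms -/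
theorem toAut_conj_f₁ (A B : GU n F q) (σ : F ≃+* F) :
    toAut A σ * f₁ B * (toAut A σ)⁻¹ = f₁ (A * mapGU σ B * A⁻¹) := by
  rw [toAut_eq, map_mul, map_mul, map_inv, ← conj_field]
  group

/-- `A σ(D) = c D A` for commuting automorphisms -/
theorem exists_comm_scalar (hF : Fintype.card F = q ^ 2) (hn : 3 ≤ n) {A D : GU n F q} {σ : F ≃+* F}
    (hc : Commute (toAut A σ) (toAut D 1)) : ∃ c : F, c * c ^ q = 1 ∧ gm D * gm A = c • (gm A * (gm D).map σ) := by
  have h1 : toAut A σ * toAut D 1 = toAut D 1 * toAut A σ := hc.eq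
  rw [toAut_mul, toAut_mul, mapGU_one] at h1
  obtain ⟨-, c, hc1, hc2⟩ := eq_of_toAut_eq hF hn h1
  exact ⟨c, hc1, hc2⟩

/-- a semilinear automorphism commuting with a diagonal matrix with different eigenvalues is monomial -/
theorem exists_mono {d : Fin n → F} (hinj : Function.Injective d) {A D : GU n F q} {σ : F ≃+* F}
    (hD : gm D = diagonal d) {c : F} (hc0 : c ≠ 0) (hc : gm D * gm A = c • (gm A * (gm D).map σ)) :
    ∃ π : Equiv.Perm (Fin n), IsMono (gm A) π := by
  have hent : ∀ i j, gm A i j ≠ 0 → d i = c * σ (d j) := by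
    intro i j hij
    have h1 := congrFun (congrFun hc i) j
    rw [hD, diagonal_mul, Matrix.smul_apply, diagonal_map (map_zero σ), mul_diagonal] at h1
    have h2 : gm A i j * (d i - c * σ (d j)) = 0 := by
      rw [smul_eq_mul] at h1
      linear_combination h1
    exact sub_eq_zero.1 ((mul_eq_zero.1 h2).resolve_left hij)
  have hcol : ∀ j, ∃ i, gm A i j ≠ 0 := by
    intro j
    by_contra hcon
    push Not at hcon
    have h1 := congrFun (congrFun (gm_inv_mul A) j) j
    rw [Matrix.mul_apply, Matrix.one_apply_eq, Finset.sum_eq_zero (fun k _ => by rw [hcon k, mul_zero])] at h1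
    exact zero_ne_one h1
  choose f hf using hcol
  have hfi : Function.Injective f := by
    intro j j' hjj
    have h1 := hent _ _ (hf j)
    have h2 := hent _ _ (hf j')
    rw [hjj, h2] at h1
    exact (hinj (σ.injective (mul_left_cancel₀ hc0 h1))).symm
  refine ⟨Equiv.ofBijective f (Finite.injective_iff_bijective.1 hfi), ?_⟩
  intro i j hij
  by_contra h0
  apply hij
  show i = f j
  apply hinj
  rw [hent _ _ h0, hent _ _ (hf j)]

/-- a monomial matrix of determinant one with given permutation -/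
theorem exists_mono_su (hF : Fintype.card F = q ^ 2) (hn : 0 < n) (ρ : Equiv.Perm (Fin n)) :
    ∃ G : GU n F q, IsMono (gm G) ρ ∧ (gm G).det = 1 := by
  obtain ⟨E, a, hE, hdet⟩ := exists_det_corr hF hn (guPerm q ρ⁻¹ : GU n F q)
  refine ⟨guPerm q ρ⁻¹ * E, ?_, hdet⟩
  have h1 := isMono_guPerm (F := F) (q := q) ρ⁻¹
  rw [inv_inv] at h1
  have h2 : IsMono (gm E) 1 := by
    rw [hE]
    exact isMono_diagonal a
  have h3 := h1.mul h2
  rwa [mul_one] at h3

theorem diag_small (hF : Fintype.card F = q ^ 2) (hn : 3 ≤ n) (h32 : ¬ (n = 3 ∧ q = 2)) {α : MulAut (PSU n F q)}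
    (h : Cfg α) {p : ℕ} (hp : p.Prime) {D : GU n F q} {d : Fin n → F} (hD : gm D = diagonal d)
    (hd : ∀ i, d i ^ p = 1) (hinj : Function.Injective d) (hnp : n < p) (hy : toAut D 1 ∈ zpowers α) : False := by
  obtain ⟨A, σ, rfl⟩ := ClassicalGeometry.PSUAutMain.exists_toAut hF hn h32 α
  have hcomm : Commute (toAut A σ) (toAut D 1) := Cfg.comm_zpowers (mem_zpowers _) hy
  obtain ⟨c, hc1, hc⟩ := exists_comm_scalar hF hn hcomm
  have hc0 : c ≠ 0 := by
    rintro rfl
    rw [zero_mul] at hc1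
    exact zero_ne_one hc1
  obtain ⟨π, hπ⟩ := exists_mono hinj hD hc0 hc
  -- a permutation `ρ ≠ 1` commuting with `π`
  obtain ⟨ρ, hρ1, hρπ⟩ : ∃ ρ : Equiv.Perm (Fin n), ρ ≠ 1 ∧ π * ρ * π⁻¹ = ρ := by
    by_cases h1 : π = 1
    · refine ⟨Equiv.swap ⟨0, by omega⟩ ⟨1, by omega⟩, ?_, by rw [h1, one_mul, inv_one, mul_one]⟩
      intro h2
      rw [Equiv.Perm.one_def, Equiv.swap_eq_refl_iff] at h2
      have := congrArg Fin.val h2
      simp at this
    · exact ⟨π, h1, mul_inv_cancel_right π π⟩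
  obtain ⟨G, hG, hdet⟩ := exists_mono_su (q := q) hF (by omega : 0 < n) ρ
  obtain ⟨g, hg⟩ := exists_SU_of_det _ hdet
  have hgc : f₁ G = MulAut.conj (pr n F q g) := f₁_eq_conj _ g hg
  -- `g⁻¹ α(g)` is diagonal
  have hmono : IsMono (gm (G⁻¹ * (A * mapGU σ G * A⁻¹))) 1 := by
    have h1 : IsMono (gm (A * mapGU σ G * A⁻¹)) ρ := by
      have h2 : IsMono (gm (mapGU σ G)) ρ := by
        rw [gm_mapGU']
        exact hG.map σ
      have h3 : IsMono (gm A⁻¹) π⁻¹ := IsMono.inv (A := (A : GL (Fin n) F)) hπ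
      have h4 := (hπ.mul h2).mul h3
      rw [hρπ] at h4
      exact h4
    have h2 : IsMono (gm G⁻¹) ρ⁻¹ := IsMono.inv (A := (G : GL (Fin n) F)) hG
    have h3 := h2.mul h1
    rwa [inv_mul_cancel] at h3
  have hX : ∀ x ∈ fixA (toAut D 1 : MulAut (PSU n F q)), (toAut A σ) x ∈ fixA (toAut D 1 : MulAut (PSU n F q)) :=
    Cfg.fixA_inv hcomm.symm
  have hC : fixA (toAut A σ : MulAut (PSU n F q)) ≤ fixA (toAut D 1) := by
    intro x hx
    rw [mem_fixA] at hx ⊢
    obtain ⟨k, hk⟩ := hy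
    have h1 : toAut A σ ∈ MulAction.stabilizer (MulAut (PSU n F q)) x := hx
    have h2 : (toAut A σ : MulAut (PSU n F q)) ^ k ∈ MulAction.stabilizer (MulAut (PSU n F q)) x := zpow_mem h1 k
    rw [← hk]
    exact h2
  have hmem : pr n F q g ∈ fixA (toAut D 1 : MulAut (PSU n F q)) := by
    apply h.ccp.norm hX hC
    rw [mem_fixA]
    apply fix_of_comm h.center_bot
    have h1 : MulAut.conj ((pr n F q g)⁻¹ * toAut A σ (pr n F q g)) = f₁ (G⁻¹ * (A * mapGU σ G * A⁻¹)) := by
      rw [map_mul, map_inv, ← aut_conj, ← hgc, toAut_conj_f₁, map_mul f₁ G⁻¹, map_inv]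
    rw [h1]
    change f₁ D * f₁ _ = f₁ _ * f₁ D
    rw [← map_mul, ← map_mul]
    congr 1
    apply gm_inj
    generalize G⁻¹ * (A * mapGU σ G * A⁻¹) = X at hmono ⊢
    rw [gm_mul, gm_mul, hD]
    ext i j
    rw [diagonal_mul, mul_diagonal]
    by_cases hij : i = j
    · rw [hij, mul_comm]
    · rw [hmono i j hij, mul_zero, zero_mul]
  -- `D G = c' G D`
  have hGD : Commute (toAut G 1) (toAut D 1) := by
    have h1 := aut_conj (toAut D 1) (pr n F q g)
    rw [mem_fixA.1 hmem, ← hgc, mul_inv_eq_iff_eq_mul] at h1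
    exact h1.symm
  obtain ⟨c', hc1', hc'⟩ := exists_comm_scalar hF hn hGD
  have hmap : (gm D).map (1 : F ≃+* F) = gm D := by
    ext i j
    rfl
  rw [hmap] at hc'
  have hent : ∀ j, d (ρ j) = c' * d j := by
    intro j
    have h1 := congrFun (congrFun hc' (ρ j)) j
    rw [hD, diagonal_mul, Matrix.smul_apply, mul_diagonal, smul_eq_mul] at h1
    have h0 : gm G (ρ j) j ≠ 0 := IsMono.apply_ne_zero (A := (G : GL (Fin n) F)) hG j
    have h2 : gm G (ρ j) j * (d (ρ j) - c' * d j) = 0 := by linear_combination h1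
    exact sub_eq_zero.1 ((mul_eq_zero.1 h2).resolve_left h0)
  obtain ⟨j, hj⟩ : ∃ j, ρ j ≠ j := by
    by_contra hcon
    push Not at hcon
    exact hρ1 (Equiv.ext hcon)
  have hdj0 : d j ≠ 0 := by
    intro h0
    have := hd j
    rw [h0, zero_pow hp.ne_zero] at this
    exact zero_ne_one this
  have hc'1 : c' ≠ 1 := by
    intro h1
    apply hj
    apply hinj
    rw [hent, h1, one_mul]
  have hc'p : c' ^ p = 1 := by
    have h1 := hd (ρ j)
    rw [hent, mul_pow, hd, mul_one] at h1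
    exact h1
  have hc'0 : c' ≠ 0 := by
    rintro rfl
    rw [zero_pow hp.ne_zero] at hc'p
    exact zero_ne_one hc'p
  have hit : ∀ k : ℕ, d ((ρ ^ k) j) = c' ^ k * d j := by
    intro k
    induction k with
    | zero => rw [pow_zero, pow_zero, one_mul]; rfl
    | succ k ih => rw [pow_succ', Equiv.Perm.mul_apply, hent, ih, pow_succ']; ring
  have : Fact p.Prime := ⟨hp⟩
  have hord : orderOf c' = p := orderOf_eq_prime hc'p hc'1
  have hinj2 : Function.Injective fun k : Fin p => (ρ ^ (k : ℕ)) j := by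
    intro a b hab
    have h1 : d ((ρ ^ (a : ℕ)) j) = d ((ρ ^ (b : ℕ)) j) := congrArg d hab
    rw [hit, hit] at h1
    have h2 := mul_right_cancel₀ hdj0 h1
    apply Fin.ext
    have h3 : (a : ℕ) < orderOf c' := by rw [hord]; exact a.2
    have h4 : (b : ℕ) < orderOf c' := by rw [hord]; exact b.2
    exact pow_injOn_Iio_orderOf h3 h4 h2
  have h5 := Fintype.card_le_of_injective _ hinj2
  rw [Fintype.card_fin, Fintype.card_fin] at h5
  omega

end Cfsg.Agent.H198.ElPsu
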