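import Cfsg.Agent.H198.ElPsu.Tools
import Cfsg.Agent.CpAutU.Fixed
import Cfsg.Agent.H173.RU.Aut
import Cfsg.Agent.GenPsu.Psu

/-!
# Elliptic configurations in `PSU_n(q)`: field automorphisms of odd prime order (helper198, for S4114)
-/

set_option autoImplicit false
set_option linter.unusedSectionVars false

namespace Cfsg.Agent.H198.ElPsu

open Subgroup Matrix Cfsg Cfsg.Agent.H520
open Cfsg.Agent.CpAut.Psl Cfsg.Agent.CpAutU.Fld Cfsg.Agent.CpAutU.Desc Cfsg.Agent.CpAutU.Fixed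
open Cfsg.Agent.LieClassical.HermBasic Cfsg.Agent.LieClassical.HermSiegel
open Cfsg.Agent.ClassicalGeometry.PSUAutCount (gm semiConj toAut toAut_pr herm_gm act_semiConj gm_inj)
open Cfsg.Agent.ClassicalGeometry.PSUAutBasic (pr pr_surjective pr_eq_one_iff transv act_transv isSiegel_zero
  siegel_pow_prime_pow exists_frame IsFrame)
open Cfsg.Agent.GpUn (eq_one_of_center comm_of_pr)

variable {F : Type*} [Field F] [Fintype F] {q n : ℕ}

theorem coprime_pow (hF : Fintype.card F = q ^ 2) {r : ℕ} [hr : Fact r.Prime] [hcr : CharP F r] (k : ℕ) :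
    (r ^ k).Coprime (q + 1) := by
  obtain ⟨p, j, hp, hch, hq, hj⟩ := exists_prime_pow hF
  have h1 : p = r := CharP.eq F hch hcr
  subst h1
  apply Nat.Coprime.pow_left
  rw [Nat.Prime.coprime_iff_not_dvd hp, hq]
  intro h
  have h2 : p ∣ p ^ j := dvd_pow_self p hj.ne'
  have h3 := (Nat.dvd_add_right h2).1 h
  exact hp.one_lt.ne' (Nat.dvd_one.1 h3)

theorem exists_relem (hF : Fintype.card F = q ^ 2) (hn : 2 ≤ n) (r : ℕ) [hr : Fact r.Prime] [CharP F r] :
    ∃ l : SU n F q, l ≠ 1 ∧ ∃ k : ℕ, l ^ r ^ k = 1 := by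
  obtain ⟨e, f, h⟩ := exists_frame (n := n) hF hn
  obtain ⟨μ, hμ0, hμ⟩ := exists_trace_zero_ne hF
  refine ⟨transv hF e h.ee μ hμ, ?_, siegel_pow_prime_pow hF r (isSiegel_zero h.ee hμ)⟩
  intro h1
  have h2 := act_transv hF h.ee hμ f
  rw [h1, act_one] at h2
  have h3 : (μ * hermForm n F q f e) • e = 0 := by
    have := congrArg (fun w => w - f) h2
    simpa using this.symm
  have hfe : hermForm n F q f e = 1 := by rw [herm_swap hF e f, h.ef, one_pow]
  rw [hfe, mul_one] at h3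
  rcases smul_eq_zero.1 h3 with h4 | h4
  · exact hμ0 h4
  · have h5 := h.ef
    rw [h4, herm_zero_left] at h5
    exact zero_ne_one h5

theorem not_mem_center (hF : Fintype.card F = q ^ 2) (hn : 3 ≤ n) (r : ℕ) [hr : Fact r.Prime] [CharP F r]
    {l : SU n F q} (hl : l ≠ 1) (hk : ∃ k : ℕ, l ^ r ^ k = 1) : l ∉ center (SU n F q) := by
  obtain ⟨k, hk⟩ := hk
  exact fun h => hl (eq_one_of_center hF hn (coprime_pow hF k) h hk)

/-- the homomorphism into the fixed points of a conjugate of a field automorphism -/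
def fhom {s : ℕ} {ρ : F ≃+* F} (hF : Fintype.card F = q ^ 2) (hpow : ∀ a ∈ fixf ρ, a ^ q = a ^ s)
    (e : MulAut (PSU n F q)) : SU n ↥(fixf ρ) s →* PSU n F q :=
  e.toMonoidHom.comp ((pr n F q).comp (embSU hF hpow))

theorem fhom_apply {s : ℕ} {ρ : F ≃+* F} (hF : Fintype.card F = q ^ 2) (hpow : ∀ a ∈ fixf ρ, a ^ q = a ^ s)
    (e : MulAut (PSU n F q)) (l : SU n ↥(fixf ρ) s) : fhom hF hpow e l = e (pr n F q (embSU hF hpow l)) := rfl

theorem toAut_embSU {s : ℕ} {ρ : F ≃+* F} (hF : Fintype.card F = q ^ 2) (hpow : ∀ a ∈ fixf ρ, a ^ q = a ^ s)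
    (l : SU n ↥(fixf ρ) s) : toAut 1 ρ (pr n F q (embSU hF hpow l)) = pr n F q (embSU hF hpow l) := by
  have h1 : toAut 1 ρ (pr n F q (embSU hF hpow l)) = pr n F q (semiConj 1 ρ (embSU hF hpow l)) := toAut_pr 1 ρ _
  rw [h1, semiConj_embSU]

theorem fhom_fix {s : ℕ} {ρ : F ≃+* F} (hF : Fintype.card F = q ^ 2) (hpow : ∀ a ∈ fixf ρ, a ^ q = a ^ s)
    {e y : MulAut (PSU n F q)} (hy : y = e * toAut 1 ρ * e⁻¹) (l : SU n ↥(fixf ρ) s) :
    y (fhom hF hpow e l) = fhom hF hpow e l := by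
  rw [hy, fhom_apply, MulAut.mul_apply, MulAut.mul_apply, MulAut.inv_apply_self, toAut_embSU]

theorem fhom_ne (hF : Fintype.card F = q ^ 2) (hn : 3 ≤ n) {s : ℕ} {ρ : F ≃+* F}
    (hpow : ∀ a ∈ fixf ρ, a ^ q = a ^ s) (e : MulAut (PSU n F q)) (r : ℕ) [hr : Fact r.Prime] [CharP F r]
    {l : SU n ↥(fixf ρ) s} (hl : l ≠ 1) (hk : ∃ k : ℕ, l ^ r ^ k = 1) : fhom hF hpow e l ≠ 1 := by
  rw [fhom_apply]
  intro h
  have h1 : pr n F q (embSU hF hpow l) = 1 := e.injective (h.trans (map_one e).symm)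
  refine not_mem_center hF hn r (l := embSU hF hpow l) ?_ ?_ (pr_eq_one_iff.1 h1)
  · intro h2
    exact hl (embSU_injective hF hpow (h2.trans (map_one _).symm))
  · obtain ⟨k, hk⟩ := hk
    exact ⟨k, by rw [← map_pow, hk, map_one]⟩

end Cfsg.Agent.H198.ElPsu
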