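import Cfsg.Agent.H198.ElPsu.Tools

/-!
# Elliptic configurations in characteristic two and centralizers without four-groups (helper198, for S4114)
-/

set_option autoImplicit false

namespace Cfsg.Agent.H198.ElPsu

open Subgroup Cfsg Cfsg.Agent.H520

/-- involutions of a group in which commuting involutions are equal are conjugate -/
theorem conj_inv {H : Type*} [Group H] [Finite H]
    (hu : ∀ a b : H, a * a = 1 → b * b = 1 → a ≠ 1 → b ≠ 1 → a * b = b * a → a = b) {t t' : H} (ht : t * t = 1)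
    (ht' : t' * t' = 1) (h1 : t ≠ 1) (h1' : t' ≠ 1) : ∃ g : H, g * t * g⁻¹ = t' := by
  have hti : t⁻¹ = t := inv_eq_of_mul_eq_one_left ht
  have hti' : t'⁻¹ = t' := inv_eq_of_mul_eq_one_left ht'
  set d := t * t' with hd
  have hdi : d⁻¹ = t' * t := by rw [hd, _root_.mul_inv_rev, hti, hti']
  have htd : t * d * t⁻¹ = d⁻¹ := by
    rw [hdi, hd, hti]
    calc t * (t * t') * t = (t * t) * t' * t := by group
      _ = t' * t := by rw [ht, one_mul]
  have htd' : t' * d * t'⁻¹ = d⁻¹ := by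
    rw [hdi, hd, hti']
    calc t' * (t * t') * t' = t' * t * (t' * t') := by group
      _ = t' * t := by rw [ht', mul_one]
  have hpos : 0 < orderOf d := orderOf_pos d
  rcases Nat.even_or_odd' (orderOf d) with ⟨k, hk | hk⟩
  · -- even order: equal
    set z := d ^ k with hz
    have hzz : z * z = 1 := by rw [hz, ← pow_add, ← two_mul, ← hk, pow_orderOf_eq_one]
    have hz1 : z ≠ 1 := by
      intro h
      have h2 := orderOf_dvd_of_pow_eq_one h
      have h3 := Nat.le_of_dvd (by omega) h2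
      omega
    have hzi : z⁻¹ = z := inv_eq_of_mul_eq_one_left hzz
    have hz2 : d⁻¹ ^ k = z := by rw [inv_pow, ← hz, hzi]
    have e1 : t = z := by
      refine hu t z ht hzz h1 hz1 ?_
      have : t * z * t⁻¹ = z := by rw [hz, ← conj_pow, htd, hz2]
      exact mul_inv_eq_iff_eq_mul.1 this
    have e2 : t' = z := by
      refine hu t' z ht' hzz h1' hz1 ?_
      have : t' * z * t'⁻¹ = z := by rw [hz, ← conj_pow, htd', hz2]
      exact mul_inv_eq_iff_eq_mul.1 this
    exact ⟨1, by rw [e1, ← e2, one_mul, inv_one, mul_one]⟩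
  · refine ⟨d ^ k, ?_⟩
    have h2 : t * d ^ k * t⁻¹ = (d ^ k)⁻¹ := by rw [← conj_pow, htd, inv_pow]
    have h3 : d ^ k * t = t * (d ^ k)⁻¹ := by
      have h4 : t * d ^ k * t = (d ^ k)⁻¹ := by rw [← h2, hti]
      calc d ^ k * t = (t * t) * d ^ k * t := by rw [ht, one_mul]
        _ = t * (t * d ^ k * t) := by group
        _ = t * (d ^ k)⁻¹ := by rw [h4]
    have h5 : (d ^ k)⁻¹ * (d ^ k)⁻¹ = d := by
      have h6 : d * (d ^ k * d ^ k) = 1 := by
        rw [← pow_add, ← pow_succ', ← two_mul, ← hk, pow_orderOf_eq_one]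
      have h7 : (d ^ k * d ^ k)⁻¹ = d := inv_eq_of_mul_eq_one_left h6
      rw [← _root_.mul_inv_rev]
      exact h7
    rw [h3, mul_assoc, h5, hd, ← mul_assoc, ht, one_mul]

/-- **No four-group in `C_G(y)`.** In characteristic two, if commuting involutions of `C_G(y)`, `y ∈ ⟨α⟩`, are equal
and `C_G(y)` has even order then `α` is not elliptic. -/
theorem false_of_unique {G : Type*} [Group G] [Finite G] {α : MulAut G} (h : Cfg α) (hE : EL 2 α)
    {y : MulAut G} (hy : y ∈ zpowers α) (h2 : ∃ t ∈ fixA y, t ≠ 1 ∧ t * t = 1)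
    (hu : ∀ a ∈ fixA y, ∀ b ∈ fixA y, a * a = 1 → b * b = 1 → a ≠ 1 → b ≠ 1 → a * b = b * a → a = b) : False := by
  have : Fact (Nat.Prime 2) := ⟨Nat.prime_two⟩
  obtain ⟨t₀, ht₀, h1₀, ht2₀⟩ := h2
  have hM : ∀ m ∈ fixA y, α m ∈ fixA y := Cfg.fixA_inv (Cfg.comm_zpowers hy (mem_zpowers α))
  set H := fixA y with hH
  let t : ↥H := ⟨t₀, ht₀⟩
  have h1 : t ≠ 1 := fun e => h1₀ (congrArg Subtype.val e)
  have ht2 : t * t = 1 := Subtype.ext ht2₀
  have hu' : ∀ a b : ↥H, a * a = 1 → b * b = 1 → a ≠ 1 → b ≠ 1 → a * b = b * a → a = b := by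
    intro a b ha hb ha1 hb1 hab
    apply Subtype.ext
    exact hu a.1 a.2 b.1 b.2 (congrArg Subtype.val ha) (congrArg Subtype.val hb) (fun e => ha1 (Subtype.ext e))
      (fun e => hb1 (Subtype.ext e)) (congrArg Subtype.val hab)
  have hiso : IsIsolated t := by
    intro g hc
    refine (hu' t _ ht2 ?_ h1 ?_ hc).symm
    · calc g * t * g⁻¹ * (g * t * g⁻¹) = g * (t * t) * g⁻¹ := by group
        _ = 1 := by rw [ht2]; group
    · intro e
      apply h1
      calc t = g⁻¹ * (g * t * g⁻¹) * g := by group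
        _ = 1 := by rw [e]; group
  have hord : orderOf t = 2 := orderOf_eq_prime (by rw [pow_two, ht2]) h1
  have hZ := h.zst.any 2 ↥H t ⟨1, by rw [hord, pow_one]⟩ hiso
  have hN : (pPrimeCore 2 ↥H).Normal := Agent.Lib.Cores.pPrimeCore_normal 2
  have hNc : (pPrimeCore 2 ↥H).Characteristic := Agent.Lib.Cores.pPrimeCore_characteristic 2
  let β := resA α H hM
  have hNi : ∀ m ∈ pPrimeCore 2 ↥H, β m ∈ pPrimeCore 2 ↥H := by
    intro m hm
    have h3 := Subgroup.characteristic_iff_map_eq.1 hNc β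
    have h4 : β m ∈ (pPrimeCore 2 ↥H).map β.toMonoidHom := ⟨m, hm, rfl⟩
    rwa [h3] at h4
  obtain ⟨g, hg⟩ := conj_inv hu' ht2 (t' := β t) (by rw [← map_mul, ht2, map_one]) h1 (fun e => h1 (by
    apply β.injective
    rw [e, map_one]))
  have h3 : β t * t⁻¹ ∈ pPrimeCore 2 ↥H := by
    have := hZ g
    rwa [hg] at this
  have h4 : t⁻¹ * β t ∈ pPrimeCore 2 ↥H := by
    have h5 := hN.conj_mem _ h3 t⁻¹
    have h6 : t⁻¹ * (β t * t⁻¹) * t⁻¹⁻¹ = t⁻¹ * β t := by group
    rwa [h6] at h5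
  obtain ⟨c, hc, hct⟩ := (h.ccp.res H hM).fix_quo (pPrimeCore 2 ↥H) hNi h4
  -- `c` has even order
  apply hE.not_dvd_fix
  have hcard := Agent.Lib.Cores.pPrimeCore_coprime (G := ↥H) 2
  have h5 : (QuotientGroup.mk c : ↥H ⧸ pPrimeCore 2 ↥H) = QuotientGroup.mk t := QuotientGroup.eq.2 hct
  have h6 : orderOf (QuotientGroup.mk t : ↥H ⧸ pPrimeCore 2 ↥H) = 2 := by
    apply orderOf_eq_prime
    · rw [pow_two, ← QuotientGroup.mk_mul, ht2]
      rfl
    · intro e
      rw [QuotientGroup.eq_one_iff] at e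
      have h7 : orderOf (⟨t, e⟩ : ↥(pPrimeCore 2 ↥H)) = 2 := by
        rw [← orderOf_injective (pPrimeCore 2 ↥H).subtype (pPrimeCore 2 ↥H).subtype_injective]
        exact hord
      have h8 := orderOf_dvd_natCard (⟨t, e⟩ : ↥(pPrimeCore 2 ↥H))
      rw [h7] at h8
      have h9 := Nat.dvd_gcd h8 (dvd_refl 2)
      rw [hcard] at h9
      omega
  have h7 : 2 ∣ orderOf c := by
    have h8 : orderOf (QuotientGroup.mk c : ↥H ⧸ pPrimeCore 2 ↥H) ∣ orderOf c :=
      orderOf_map_dvd (QuotientGroup.mk' (pPrimeCore 2 ↥H)) c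
    rw [h5, h6] at h8
    exact h8
  have hcf : c.1 ∈ fixA α := by
    rw [mem_fixA]
    exact congrArg Subtype.val hc
  have h8 : orderOf (⟨c.1, hcf⟩ : ↥(fixA α)) = orderOf c := by
    rw [← orderOf_injective (fixA α).subtype (fixA α).subtype_injective, ← orderOf_injective H.subtype H.subtype_injective c]
    rfl
  rw [← h8] at h7
  exact h7.trans (orderOf_dvd_natCard _)

end Cfsg.Agent.H198.ElPsu
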