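import Cfsg.Agent.H198.ElPsu.Field
import Cfsg.Agent.H198.ElPsu.Three
import Cfsg.Agent.H198.ElPsu.ZStar

/-!
# Elliptic configurations in `PSU_n(q)`: no field automorphisms of odd prime order (helper198, for S4114)
-/

set_option autoImplicit false
set_option linter.unusedSectionVars false

namespace Cfsg.Agent.H198.ElPsu

open Subgroup Matrix Cfsg Cfsg.Agent.H520
open Cfsg.Agent.CpAut.Psl Cfsg.Agent.CpAutU.Fld Cfsg.Agent.CpAutU.Desc Cfsg.Agent.CpAutU.Fixed
open Cfsg.Agent.LieClassical.HermBasic Cfsg.Agent.LieClassical.HermSiegel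
open Cfsg.Agent.ClassicalGeometry.PSUAutCount (gm semiConj toAut toAut_pr herm_gm act_semiConj gm_inj)
open Cfsg.Agent.ClassicalGeometry.PSUAutBasic (pr pr_surjective pr_eq_one_iff)
open Cfsg.Agent.GpUn (eq_one_of_center comm_of_pr)
open Cfsg.Agent.H173.RU (exists_lift_elt eq_of_pr_eq)

variable {F : Type} [Field F] [Fintype F] {q n : ℕ}

theorem charP_fixf {r : ℕ} [hc : CharP F r] (ρ : F ≃+* F) : CharP ↥(fixf ρ) r :=
  (RingHom.charP_iff (fixf ρ).subtype (fixf ρ).subtype.injective r).2 hc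

/-- Involutions of the fixed points of a field automorphism come from `SU` over the fixed field. -/
theorem exists_inv (hF : Fintype.card F = q ^ 2) (hn : 3 ≤ n) [hc : CharP F 2] {s : ℕ} {ρ : F ≃+* F}
    (hpow : ∀ a ∈ fixf ρ, a ^ q = a ^ s) {a : PSU n F q} (ha : toAut 1 ρ a = a) (haa : a * a = 1) :
    ∃ l : SU n ↥(fixf ρ) s, l * l = 1 ∧ pr n F q (embSU hF hpow l) = a := by
  have : Fact (Nat.Prime 2) := ⟨Nat.prime_two⟩
  have h2 : Nat.Coprime 2 (q + 1) := by
    have := coprime_pow (r := 2) hF 1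
    rwa [pow_one] at this
  obtain ⟨g, hg, rfl⟩ := exists_lift_elt hF hn h2 (z := a) (by rw [pow_two, haa])
  have h3 : pr n F q (semiConj 1 ρ g) = pr n F q g := ha
  have h4 : semiConj 1 ρ g = g := eq_of_pr_eq hF hn h2 (by rw [← map_pow, hg, map_one]) hg h3
  obtain ⟨l, rfl⟩ := exists_embSU hF hpow h4
  refine ⟨l, ?_, rfl⟩
  apply embSU_injective hF hpow
  rw [map_mul, map_one, ← pow_two, hg]

/-- **The field case.** -/
theorem field_false (hF : Fintype.card F = q ^ 2) (hn : 3 ≤ n) {r : ℕ} [hr : Fact r.Prime]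
    [hcr : CharP F r] {α : MulAut (PSU n F q)} (h : Cfg α) (hE : EL r α) {p : ℕ} (hp : p.Prime) (hp2 : p ≠ 2)
    {A : GU n F q} {ρ : F ≃+* F} (hy : toAut A ρ ∈ zpowers α) (ho : orderOf (toAut A ρ) = p) (hρ : ρ ≠ 1) :
    False := by
  have hyp : toAut A ρ ^ p = 1 := by rw [← ho]; exact pow_orderOf_eq_one _
  have hy1 : toAut A ρ ≠ 1 := by
    intro e
    rw [e, orderOf_one] at ho
    exact hp.one_lt.ne ho
  obtain ⟨hord, M, hM⟩ := CpAutU.Desc.exists_conj hF hn hp hp2 hyp hρ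
  obtain ⟨s, hs2, hs, hqs⟩ := exists_s' hF hord (hp.odd_of_ne_two hp2)
  have hpow : ∀ a ∈ fixf ρ, a ^ q = a ^ s := fun a ha => pow_q (hp.odd_of_ne_two hp2) hs hqs ha
  letI : Fintype ↥(fixf ρ) := Fintype.ofFinite _
  have hF₀ : Fintype.card ↥(fixf ρ) = s ^ 2 := by rw [← Nat.card_eq_fintype_card, hs]
  have hcr₀ : CharP ↥(fixf ρ) r := charP_fixf ρ
  obtain ⟨l, hl, hlr⟩ := exists_relem (n := n) hF₀ (by omega) r
  by_cases h3 : n = 3 ∧ s = 2
  · obtain ⟨h3, h4⟩ := h3
    subst h3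
    subst h4
    have hr2 : r = 2 := by
      obtain ⟨p', j, hp', hch, hq', hj⟩ := exists_prime_pow hF₀
      have h1 : p' = 2 := (Nat.prime_dvd_prime_iff_eq hp' Nat.prime_two).1 (by
        rw [hq']; exact dvd_pow_self p' hj.ne')
      subst h1
      exact CharP.eq ↥(fixf ρ) hcr₀ hch
    subst hr2
    -- an involution
    obtain ⟨k, hk⟩ := hlr
    have hlo : ∃ t : SU 3 ↥(fixf ρ) 2, t ≠ 1 ∧ t * t = 1 := by
      have h5 : 2 ∣ orderOf l := by
        obtain ⟨i, -, hi⟩ := (Nat.dvd_prime_pow Nat.prime_two).1 (orderOf_dvd_of_pow_eq_one hk)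
        rw [hi]
        rcases Nat.eq_zero_or_pos i with h6 | h6
        · rw [h6, pow_zero, orderOf_eq_one_iff] at hi
          exact absurd hi hl
        · exact dvd_pow_self 2 h6.ne'
      have h6 : orderOf (l ^ (orderOf l / 2)) = 2 := orderOf_pow_orderOf_div (orderOf_pos l).ne' h5
      refine ⟨l ^ (orderOf l / 2), fun h7 => ?_, by
        have h8 := pow_orderOf_eq_one (l ^ (orderOf l / 2))
        rw [h6, pow_two] at h8
        exact h8⟩
      rw [h7, orderOf_one] at h6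
      omega
    obtain ⟨t, ht1, htt⟩ := hlo
    have hconj : ∀ a : PSU 3 F q, a ∈ fixA (toAut A ρ) → toAut 1 ρ ((toAut M 1)⁻¹ a) = (toAut M 1)⁻¹ a := by
      intro a ha
      rw [mem_fixA, hM, MulAut.mul_apply, MulAut.mul_apply] at ha
      apply (toAut M 1).injective
      rw [ha, MulAut.apply_inv_self]
    have h2c : Nat.Coprime 2 (q + 1) := by
      have := coprime_pow (r := 2) hF 1
      rwa [pow_one] at this
    refine false_of_unique h hE hy ⟨fhom hF hpow (toAut M 1) t, fhom_fix hF hpow hM t,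
      fhom_ne hF hn hpow _ 2 ht1 ⟨1, by rw [pow_one, pow_two, htt]⟩, by rw [← map_mul, htt, map_one]⟩ ?_
    intro a ha b hb haa hbb ha1 hb1 hab
    obtain ⟨u, huu, hua⟩ := exists_inv hF hn hpow (hconj a ha) (by rw [← map_mul, haa, map_one])
    obtain ⟨v, hvv, hvb⟩ := exists_inv hF hn hpow (hconj b hb) (by rw [← map_mul, hbb, map_one])
    have hu1 : u ≠ 1 := by
      rintro rfl
      rw [map_one, map_one] at hua
      apply ha1
      apply (toAut M 1)⁻¹.injective
      rw [← hua, map_one]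
    have hv1 : v ≠ 1 := by
      rintro rfl
      rw [map_one, map_one] at hvb
      apply hb1
      apply (toAut M 1)⁻¹.injective
      rw [← hvb, map_one]
    have hcomm : u * v = v * u := by
      apply embSU_injective hF hpow
      rw [map_mul, map_mul]
      refine comm_of_pr hF hn h2c (by rw [← map_pow, pow_two, hvv, map_one]) ?_
      change pr 3 F q _ * pr 3 F q _ = pr 3 F q _ * pr 3 F q _
      rw [hua, hvb, ← map_mul, ← map_mul, hab]
    have huv := su_three_two hF₀ huu hvv hu1 hv1 hcomm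
    apply (toAut M 1)⁻¹.injective
    rw [← hua, ← hvb, huv]
  · exact false_of_qs h hE hy hy1 (GenPsu.quasi hF₀ hn h3) (not_mem_center hF₀ hn r hl hlr) hlr
      (fhom hF hpow (toAut M 1)) ⟨l, fhom_ne hF hn hpow _ r hl hlr⟩ (fhom_fix hF hpow hM)

end Cfsg.Agent.H198.ElPsu
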