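import Cfsg.Agent.H198.ElPsu.DiagSmall
import Cfsg.Agent.H198.ElPsu.DiagRep

/-!
# Elliptic configurations in `PSU_n(q)`: elements of order `p ∣ q + 1` of `GU` (helper198, for S4114)
-/

set_option autoImplicit false
set_option linter.unusedSectionVars false

namespace Cfsg.Agent.H198.ElPsu

open Subgroup Matrix Polynomial Cfsg Cfsg.Agent.H520
open Cfsg.Agent.LieClassical.HermBasic Cfsg.Agent.LieClassical.HermSiegel
open Cfsg.Agent.ClassicalGeometry.PSUAutCount (gm gm_mul gm_one gm_mul_inv gm_inv_mul semiConj toAut toAut_pr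
  herm_gm act_semiConj gm_inj eq_of_toAut_eq)
open Cfsg.Agent.ClassicalGeometry.GUBasic (guDiag guPerm)
open Cfsg.Agent.Schreier.PSU (f₁ f₂ mapGU f₁_eq_conj conj_field toAut_eq)

theorem congr_zpow {G : Type*} [Group G] {α y : MulAut G} (e : MulAut G) (hy : y ∈ zpowers α) :
    MulAut.congr e y ∈ zpowers (MulAut.congr e α) := by
  obtain ⟨k, rfl⟩ := hy
  exact ⟨k, (map_zpow (MulAut.congr e) α k).symm⟩

theorem congr_conj {G : Type*} [Group G] (e y : MulAut G) : MulAut.congr e y = e * y * e⁻¹ := by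
  ext x
  rfl

variable {F : Type} [Field F] [Fintype F] {q n : ℕ}

theorem exists_prim (hF : Fintype.card F = q ^ 2) {p : ℕ} (hp : p.Prime) (hpq : p ∣ q + 1) :
    ∃ ζ : F, IsPrimitiveRoot ζ p := by
  have : Fact p.Prime := ⟨hp⟩
  have h1 : p ∣ Nat.card Fˣ := by
    rw [card_units_eq hF]
    exact Dvd.dvd.mul_right hpq _
  obtain ⟨u, hu⟩ := exists_prime_orderOf_dvd_card' p h1
  exact ⟨(u : F), by
    rw [IsPrimitiveRoot.coe_units_iff, ← hu]
    exact IsPrimitiveRoot.orderOf u⟩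

theorem natCast_ne (hF : Fintype.card F = q ^ 2) {p : ℕ} (hp : p.Prime) (hpq : p ∣ q + 1) : (p : F) ≠ 0 := by
  obtain ⟨r, j, hr, hch, hq, hj⟩ := exists_prime_pow hF
  intro h0
  have h1 : r ∣ p := (CharP.cast_eq_zero_iff F r p).1 h0
  have h2 : r = p := (Nat.prime_dvd_prime_iff_eq hr hp).1 h1
  have h3 : p ∣ q := by
    rw [hq, ← h2]
    exact dvd_pow_self r hj.ne'
  have h4 := (Nat.dvd_add_right h3).1 hpq
  exact hp.one_lt.ne' (Nat.dvd_one.1 h4)

theorem le_of_inj {F : Type*} [Field F] {p : ℕ} {d : Fin n → F} (hp0 : 0 < p) (hd : ∀ i, d i ^ p = 1)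
    (hinj : Function.Injective d) : n ≤ p := by
  have h1 : ∏ i, (X - C (d i) : F[X]) ∣ X ^ p - 1 := by
    apply Finset.prod_dvd_of_coprime
    · intro i _ j _ hij
      exact pairwise_coprime_X_sub_C hinj hij
    · intro i _
      rw [dvd_iff_isRoot, IsRoot.def]
      simp [hd]
  have hm' : (X ^ p - 1 : F[X]).Monic := by
    have := monic_X_pow_sub_C (1 : F) hp0.ne'
    rwa [C_1] at this
  have h2 := natDegree_le_of_dvd h1 hm'.ne_zero
  rw [natDegree_prod_of_monic _ _ fun i _ => monic_X_sub_C _] at h2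
  have h3 : (X ^ p - 1 : F[X]).natDegree = p := by
    have := natDegree_X_pow_sub_C (n := p) (r := (1 : F))
    rwa [C_1] at this
  rw [h3] at h2
  simpa using h2

/-- **The split case.** -/
theorem split_false (hF : Fintype.card F = q ^ 2) (hn : 3 ≤ n) (h4 : 4 ≤ q) {r : ℕ}
    [hr : Fact r.Prime] [hcr : CharP F r] {α : MulAut (PSU n F q)} (h : Cfg α) (hE : EL r α) {p : ℕ} (hp : p.Prime)
    (hp2 : p ≠ 2) (hpq : p ∣ q + 1) {B : GU n F q} (hB : gm B ^ p = 1) (hy : toAut B 1 ∈ zpowers α)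
    (hy1 : toAut B 1 ≠ 1) : False := by
  obtain ⟨ζ, hζ⟩ := exists_prim hF hp hpq
  have hann : aeval (gm B) (X ^ p - 1 : F[X]) = 0 := by
    rw [map_sub, map_pow, aeval_X, map_one, hB, sub_self]
  have hm' : (X ^ p - 1 : F[X]).Monic := by
    have := monic_X_pow_sub_C (1 : F) hp.ne_zero
    rwa [C_1] at this
  obtain ⟨d, hd, hd1⟩ := exists_diag hann (X_pow_sub_one_splits hζ) hm'.ne_zero
  have hdp : ∀ i, d i ^ p = 1 := by
    intro i
    have := hd1 i
    rw [eval_sub, eval_pow, eval_X, eval_one] at this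
    exact sub_eq_zero.1 this
  have hdq : ∀ i, d i ^ (q + 1) = 1 := by
    intro i
    obtain ⟨k, hk⟩ := hpq
    rw [hk, pow_mul, hdp, one_pow]
  obtain ⟨D, hD⟩ : ∃ D : GU n F q, gm D = diagonal d := ⟨guDiag q d hdq, rfl⟩
  have hDp : gm D ^ p = 1 := by
    rw [hD, diagonal_pow, ← diagonal_one]
    congr 1
    funext i
    exact hdp i
  obtain ⟨M, hM⟩ := exists_gu_conj hF (natCast_ne hF hp hpq) hB hDp (by rw [hd, hD])
  have hconj : MulAut.congr (toAut M 1) (toAut B 1) = toAut D 1 := by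
    rw [congr_conj]
    change f₁ M * f₁ B * (f₁ M)⁻¹ = f₁ D
    rw [mul_inv_eq_iff_eq_mul, ← map_mul, ← map_mul, hM]
  have h' := h.congr (toAut M 1)
  have hE' := hE.congr (toAut M 1)
  have hy' := congr_zpow (toAut M 1) hy
  rw [hconj] at hy'
  have hy1' : toAut D 1 ≠ 1 := by
    intro h0
    apply hy1
    apply (MulAut.congr (toAut M 1)).injective
    rw [hconj, h0, map_one]
  by_cases hinj : Function.Injective d
  · rcases (le_of_inj hp.pos hdp hinj).lt_or_eq with hlt | heq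
    · exact diag_small hF hn (by omega) h' hp hD hdp hinj hlt hy'
    · exact diag_full hF h' hp hp2 (natCast_ne hF hp hpq) hD hdp hinj heq hy' hy1'
  · rw [Function.Injective] at hinj
    push Not at hinj
    obtain ⟨i, j, hij, hne⟩ := hinj
    exact diag_rep hF hn h4 h' hE' hD hy' hy1' hne hij

end Cfsg.Agent.H198.ElPsu
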