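import Cfsg.Agent.H198.ElPsu.Tensor
import Cfsg.Agent.H198.ElPsu.Split

/-!
# Elliptic configurations in `PSU_n(q)`: `B ^ p = μ`, not a `p`-th power (helper198, for S4114)
-/

set_option autoImplicit false
set_option linter.unusedSectionVars false

namespace Cfsg.Agent.H198.ElPsu

open Subgroup Matrix Polynomial Cfsg Cfsg.Agent.H520
open Cfsg.Agent.LieClassical.HermBasic Cfsg.Agent.LieClassical.HermSiegel
open Cfsg.Agent.ClassicalGeometry.PSUAutCount (gm gm_mul gm_one gm_mul_inv gm_inv_mul semiConj toAut toAut_pr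
  herm_gm act_semiConj gm_inj eq_of_toAut_eq)
open Cfsg.Agent.ClassicalGeometry.PSUAutBasic (pr pr_surjective pr_eq_one_iff)
open Cfsg.Agent.ClassicalGeometry.GUBasic (guDiag guPerm)
open Cfsg.Agent.Schreier.PSU (f₁ f₂ mapGU f₁_eq_conj conj_field toAut_eq)

variable {F : Type} [Field F] [Fintype F] {q n : ℕ}

/-- an element of norm one which is not a `p`-th power of an element of norm one is not a `p`-th power -/
theorem not_pow (hF : Fintype.card F = q ^ 2) {p : ℕ} (hp : p.Prime) (hp2 : p ≠ 2) (hpq : p ∣ q + 1) {μ : F}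
    (hμ : μ ^ (q + 1) = 1) (hn : ∀ ν : F, ν ^ (q + 1) = 1 → ν ^ p ≠ μ) : ∀ b : F, b ^ p ≠ μ := by
  intro b hb
  apply hn b ?_ hb
  have hq := two_le hF
  have hb0 : b ≠ 0 := by
    rintro rfl
    rw [zero_pow hp.ne_zero] at hb
    rw [← hb, zero_pow (by omega)] at hμ
    exact zero_ne_one hμ
  have h1 : (b ^ (q + 1)) ^ p = 1 := by rw [← pow_mul, mul_comm, pow_mul, hb, hμ]
  have h2 : (b ^ (q + 1)) ^ (q - 1) = 1 := by
    rw [← pow_mul]
    have h3 : (q + 1) * (q - 1) = Fintype.card F - 1 := by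
      rw [hF]
      have := Nat.sq_sub_sq q 1
      rw [one_pow] at this
      rw [this]
    rw [h3]
    exact FiniteField.pow_card_sub_one_eq_one b hb0
  have hcop : p.Coprime (q - 1) := by
    rw [Nat.Prime.coprime_iff_not_dvd hp]
    intro h3
    have h4 : p ∣ (q + 1) - (q - 1) := Nat.dvd_sub hpq h3
    have h5 : (q + 1) - (q - 1) = 2 := by omega
    rw [h5] at h4
    exact hp2 ((Nat.prime_dvd_prime_iff_eq hp Nat.prime_two).1 h4)
  have h6 : orderOf (b ^ (q + 1)) ∣ Nat.gcd p (q - 1) :=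
    Nat.dvd_gcd (orderOf_dvd_of_pow_eq_one h1) (orderOf_dvd_of_pow_eq_one h2)
  rw [hcop, Nat.dvd_one, orderOf_eq_one_iff] at h6
  exact h6

theorem natCast_succ (hF : Fintype.card F = q ^ 2) : ((q + 1 : ℕ) : F) = 1 := by
  obtain ⟨r, j, hr, hch, hq, hj⟩ := exists_prime_pow hF
  have h1 : (q : F) = 0 := by
    rw [hq, Nat.cast_pow, CharP.cast_eq_zero F r, zero_pow hj.ne']
  rw [Nat.cast_add, h1, Nat.cast_one, zero_add]

theorem pow_mul_succ {M : Matrix (Fin n) (Fin n) F} {p : ℕ} {μ : F} (hM : M ^ p = μ • 1) (hμ : μ ^ (q + 1) = 1) :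
    M ^ (p * (q + 1)) = 1 := by
  rw [pow_mul, hM, _root_.smul_pow, hμ, one_pow, one_smul]

/-- **`n = p m` with `m ≥ 2`.** -/
theorem irr_dim (hF : Fintype.card F = q ^ 2) (hn : 3 ≤ n) (h4 : 4 ≤ q) {r : ℕ}
    [hr : Fact r.Prime] [hcr : CharP F r] {α : MulAut (PSU n F q)} (h : Cfg α) (hE : EL r α) {p : ℕ} (hp : p.Prime)
    (hp2 : p ≠ 2) (hpq : p ∣ q + 1) {B : GU n F q} {μ : F} (hB : gm B ^ p = μ • 1) (hμ : μ ^ (q + 1) = 1)
    (hnp : ∀ ν : F, ν ^ (q + 1) = 1 → ν ^ p ≠ μ) (hy : toAut B 1 ∈ zpowers α)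
    (hy1 : toAut B 1 ≠ 1) : n = p := by
  by_contra hne
  have hirr : Irreducible (X ^ p - C μ : F[X]) := X_pow_sub_C_irreducible_of_prime hp (not_pow hF hp hp2 hpq hμ hnp)
  obtain ⟨m, hm, hBc⟩ := charpoly_eq_pow hB hirr hp.pos
  rw [Fintype.card_fin] at hm
  have hm2 : 2 ≤ m := by
    rcases m with _ | _ | m
    · omega
    · exact absurd (by omega) hne
    · omega
  -- the model
  let e₁ : Fin m × Fin p ≃ Fin n := finProdFinEquiv.trans (finCongr (by rw [hm, mul_comm]))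
  let e₂ : Fin p × Fin m ≃ Fin n := (Equiv.prodComm _ _).trans e₁
  have he : ∀ i j, e₂ (i, j) = e₁ (j, i) := fun _ _ => rfl
  obtain ⟨C₀, hC₀⟩ := exists_cyc (F := F) (q := q) hp.pos hμ
  obtain ⟨D, hD⟩ : ∃ D : GU n F q, gm D = blk e₂ (gm C₀) := by
    have h1 : (blk e₂ (gm C₀) : Matrix (Fin n) (Fin n) F).det ≠ 0 := by
      rw [det_blk]
      apply pow_ne_zero
      intro h0
      have h2 := det_pow_succ hF C₀
      rw [h0, zero_pow (by omega)] at h2
      exact zero_ne_one h2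
    exact ⟨⟨Matrix.GeneralLinearGroup.mkOfDetNeZero _ h1, (mem_GU_iff _).2 (herm_blk e₂ fun u v => herm_gm C₀ u v)⟩,
      rfl⟩
  have hDp : gm D ^ p = μ • 1 := by rw [hD, ← blk_pow, hC₀, blk_smul, blk_one]
  obtain ⟨m', hm', hDc⟩ := charpoly_eq_pow hDp hirr hp.pos
  rw [Fintype.card_fin] at hm'
  have hmm : m' = m := Nat.eq_of_mul_eq_mul_left hp.pos (by rw [← hm', hm])
  have hN : ((p * (q + 1) : ℕ) : F) ≠ 0 := by
    rw [Nat.cast_mul, natCast_succ hF, mul_one]
    exact natCast_ne hF hp hpq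
  obtain ⟨M, hM⟩ := exists_gu_conj hF hN (pow_mul_succ hB hμ) (pow_mul_succ hDp hμ) (by rw [hBc, hDc, hmm])
  have hconj : MulAut.congr (toAut M 1) (toAut B 1) = toAut D 1 := by
    rw [congr_conj]
    change f₁ M * f₁ B * (f₁ M)⁻¹ = f₁ D
    rw [mul_inv_eq_iff_eq_mul, ← map_mul, ← map_mul, hM]
  have h' := h.congr (toAut M 1)
  have hE' := hE.congr (toAut M 1)
  have hy' := congr_zpow (toAut M 1) hy
  rw [hconj] at hy'
  have hy1' : toAut D 1 ≠ 1 := by
    intro h0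
    apply hy1
    apply (MulAut.congr (toAut M 1)).injective
    rw [hconj, h0, map_one]
  -- the homomorphism
  obtain ⟨l, hl, hlr⟩ := exists_unip hF r
  have hinj : Function.Injective (fun i : Fin 2 => (⟨i, by omega⟩ : Fin m)) := by
    intro i j hij
    have h1 : (i : ℕ) = j := congrArg (fun x : Fin m => (x : ℕ)) hij
    exact Fin.ext h1
  let f : SU 2 F q →* SU n F q := (emb e₁).comp (Phan.ext hF _ hinj)
  have hf : Function.Injective f := (emb_injective e₁ hp.pos).comp (Phan.ext_injective hF hinj)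
  refine false_of_qs h' hE' hy' hy1' (H880.Cl.quasi_two hF h4) hl hlr ((pr n F q).comp f)
    ⟨l, fun h1 => ?_⟩ (fun g => ?_)
  · have h2 : pr n F q (f l) = 1 := h1
    refine not_mem_center hF hn r (l := f l) ?_ ?_ (pr_eq_one_iff.1 h2)
    · intro h3
      apply hl
      have h4 : l = 1 := hf (h3.trans (map_one f).symm)
      rw [h4]
      exact one_mem _
    · obtain ⟨k, hk⟩ := hlr
      exact ⟨k, by rw [← map_pow, hk, map_one]⟩
  · refine toAut_fix_of_comm ?_
    rw [hD]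
    exact blk_comm e₁ e₂ he _ _

end Cfsg.Agent.H198.ElPsu
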