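import Cfsg.Agent.H198.ElPsu.Irr
import Cfsg.Agent.H201.PsuGraph

/-!
# Elliptic configurations in `PSU_n(q)`: no involutions commuting with an irreducible element (helper198, for S4114)
-/

set_option autoImplicit false
set_option linter.unusedSectionVars false

namespace Cfsg.Agent.H198.ElPsu

open Subgroup Matrix Polynomial Cfsg Cfsg.Agent.H520
open Cfsg.Agent.LieClassical.HermBasic Cfsg.Agent.LieClassical.HermSiegel
open Cfsg.Agent.ClassicalGeometry.PSUAutCount (gm gm_mul gm_one gm_mul_inv gm_inv_mul semiConj toAut toAut_pr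
  herm_gm act_semiConj gm_inj eq_of_toAut_eq)
open Cfsg.Agent.Schreier.PSU (f₁ f₂ mapGU f₁_eq_conj conj_field toAut_eq)
open Cfsg.Agent.CpAutU.Desc (toAut_mul toAut_one gm_mapGU' mapGU_one)

/-- invariant subspaces of an irreducible matrix -/
theorem dim_inv {F : Type*} [Field F] {n : ℕ} {B : Matrix (Fin n) (Fin n) F} {p : ℕ} (hp : 0 < p) {μ : F}
    (hB : B ^ p = μ • 1) (hirr : Irreducible (X ^ p - C μ : F[X])) (W : Submodule F (Fin n → F))
    (hW : ∀ w ∈ W, B *ᵥ w ∈ W) : p ∣ Module.finrank F W := by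
  let a : Module.End F (Fin n → F) := Matrix.toLin' B
  have hWa : ∀ w ∈ W, a w ∈ W := hW
  let b := Module.finBasis F W
  let M := LinearMap.toMatrix b b (a.restrict hWa)
  have ha : ∀ k : ℕ, ∀ w : W, (((a.restrict hWa) ^ k) w : Fin n → F) = (B ^ k) *ᵥ (w : Fin n → F) := by
    intro k
    induction k with
    | zero =>
      intro w
      rw [pow_zero, pow_zero, one_mulVec]
      rfl
    | succ k ih =>
      intro w
      rw [pow_succ, pow_succ, ← mulVec_mulVec, Module.End.mul_apply, ih]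
      rfl
  have hM : M ^ p = μ • 1 := by
    have h1 : (a.restrict hWa) ^ p = μ • (1 : Module.End F W) := by
      apply LinearMap.ext
      intro w
      apply Subtype.ext
      rw [ha, hB, Matrix.smul_mulVec, one_mulVec]
      rfl
    have h2 : M ^ p = LinearMap.toMatrix b b ((a.restrict hWa) ^ p) :=
      (map_pow (LinearMap.toMatrixAlgEquiv b) (a.restrict hWa) p).symm
    rw [h2, h1, map_smul, LinearMap.toMatrix_one]
  obtain ⟨m, hm, -⟩ := charpoly_eq_pow hM hirr hp
  rw [Fintype.card_fin] at hm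
  exact ⟨m, hm⟩

/-- a matrix with scalar square commuting with an irreducible matrix of odd degree is scalar -/
theorem scalar_of_comm {F : Type*} [Field F] {n : ℕ} (hn : n.Prime) (hodd : n ≠ 2) {A B : Matrix (Fin n) (Fin n) F}
    {μ ν : F} (hB : B ^ n = μ • 1) (hirr : Irreducible (X ^ n - C μ : F[X])) (hAB : B * A = A * B)
    (hA : A * A = ν • 1) (hν : ν ≠ 0) : ∃ t : F, A = t • 1 := by
  -- `ν` is a square
  obtain ⟨k, hk⟩ := hn.odd_of_ne_two hodd
  have hdet : A.det * A.det = ν ^ n := by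
    rw [← det_mul, hA, det_smul, det_one, mul_one, Fintype.card_fin]
  obtain ⟨t, ht⟩ : ∃ t : F, t * t = ν := by
    refine ⟨A.det * (ν ^ k)⁻¹, ?_⟩
    have hk0 : ν ^ k ≠ 0 := pow_ne_zero _ hν
    have h1 : A.det * A.det = ν * (ν ^ k * ν ^ k) := by
      rw [hdet]
      nth_rw 1 [hk]
      ring
    field_simp
    linear_combination h1
  let W : Submodule F (Fin n → F) := LinearMap.ker (Matrix.toLin' (A - t • 1))
  have hWm : ∀ w, w ∈ W ↔ A *ᵥ w = t • w := by
    intro w
    rw [LinearMap.mem_ker, Matrix.toLin'_apply, sub_mulVec, Matrix.smul_mulVec, one_mulVec, sub_eq_zero]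
  have hWi : ∀ w ∈ W, B *ᵥ w ∈ W := by
    intro w hw
    rw [hWm] at hw ⊢
    rw [mulVec_mulVec, ← hAB, ← mulVec_mulVec, hw, mulVec_smul]
  have hd := dim_inv hn.pos hB hirr W hWi
  have hle : Module.finrank F W ≤ n := by
    have := W.finrank_le
    rwa [Module.finrank_fin_fun] at this
  obtain ⟨m, hm⟩ := hd
  rcases Nat.eq_zero_or_pos m with h0 | h0
  · -- `W = 0`
    rw [h0, mul_zero] at hm
    have hW0 : W = ⊥ := Submodule.finrank_eq_zero.1 hm
    refine ⟨-t, ?_⟩
    have h1 : (A - t • 1) * (A + t • 1) = 0 := by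
      have : (A - t • (1 : Matrix (Fin n) (Fin n) F)) * (A + t • 1) = A * A - (t * t) • 1 := by
        rw [sub_mul, mul_add, mul_add, Matrix.smul_mul, one_mul, Matrix.mul_smul, mul_one, Matrix.smul_mul, one_mul,
          smul_smul]
        abel
      rw [this, hA, ht, sub_self]
    have h2 : A + t • (1 : Matrix (Fin n) (Fin n) F) = 0 := by
      apply Matrix.ext_of_mulVec_single
      intro i
      rw [zero_mulVec]
      have h3 : (A + t • (1 : Matrix (Fin n) (Fin n) F)) *ᵥ Pi.single i 1 ∈ W := by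
        rw [LinearMap.mem_ker, Matrix.toLin'_apply, mulVec_mulVec, h1, zero_mulVec]
      rw [hW0, Submodule.mem_bot] at h3
      exact h3
    rw [neg_smul]
    exact eq_neg_of_add_eq_zero_left h2
  · have h1 : n ≤ Module.finrank F W := by
      rw [hm]
      exact Nat.le_mul_of_pos_right n h0
    have hWt : W = ⊤ := by
      apply Submodule.eq_top_of_finrank_eq
      rw [Module.finrank_fin_fun]
      omega
    refine ⟨t, ?_⟩
    apply Matrix.ext_of_mulVec_single
    intro i
    rw [Matrix.smul_mulVec, one_mulVec, ← hWm, hWt]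
    trivial

variable {F : Type} [Field F] [Fintype F] {q n : ℕ}

/-- **No involutions.** -/
theorem no_two (hF : Fintype.card F = q ^ 2) (hn : 3 ≤ n) (h32 : ¬ (n = 3 ∧ q = 2)) {α : MulAut (PSU n F q)}
    (hnp : n.Prime) (hnq : n ∣ q + 1) {B : GU n F q} {μ : F} (hB : gm B ^ n = μ • 1) (hμ : μ ^ (q + 1) = 1)
    (hno : ∀ ν : F, ν ^ (q + 1) = 1 → ν ^ n ≠ μ) (hy : toAut B 1 ∈ zpowers α) {z : MulAut (PSU n F q)}
    (hz : z ∈ zpowers α) (hz2 : orderOf z = 2) : False := by
  have hn2 : n ≠ 2 := by omega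
  have hμ0 : μ ≠ 0 := by
    rintro rfl
    rw [zero_pow (by omega)] at hμ
    exact zero_ne_one hμ
  have hirr : Irreducible (X ^ n - C μ : F[X]) := X_pow_sub_C_irreducible_of_prime hnp (not_pow hF hnp hn2 hnq hμ hno)
  obtain ⟨A, τ, rfl⟩ := ClassicalGeometry.PSUAutMain.exists_toAut hF hn h32 z
  obtain ⟨c, hc1, hc⟩ := exists_comm_scalar hF hn (Cfg.comm_zpowers hz hy)
  have hc0 : c ≠ 0 := by
    rintro rfl
    rw [zero_mul] at hc1
    exact zero_ne_one hc1
  have hcq : c ^ (q + 1) = 1 := by rw [pow_succ', hc1]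
  -- the `n`-th powers
  have hpow : ∀ k : ℕ, gm B ^ k * gm A = c ^ k • (gm A * ((gm B).map τ) ^ k) := by
    intro k
    induction k with
    | zero => rw [pow_zero, pow_zero, pow_zero, one_mul, mul_one, one_smul]
    | succ k ih =>
      rw [pow_succ, mul_assoc, hc, Matrix.mul_smul, ← mul_assoc, ih, Matrix.smul_mul, mul_assoc, ← pow_succ, smul_smul,
        pow_succ c, mul_comm c]
  have hmap : ((gm B).map τ) ^ n = τ μ • 1 := by
    have h1 : ((gm B).map τ) ^ n = (gm B ^ n).map τ := by
      have := map_pow (τ : F →+* F).mapMatrix (gm B) n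
      exact this.symm
    rw [h1, hB]
    ext i j
    rw [Matrix.map_apply, Matrix.smul_apply, Matrix.smul_apply, smul_eq_mul, smul_eq_mul, map_mul]
    by_cases hij : i = j
    · subst hij
      rw [Matrix.one_apply_eq, map_one]
    · rw [Matrix.one_apply_ne hij, map_zero]
  have hcn : μ = c ^ n * τ μ := by
    have h1 := hpow n
    rw [hB, hmap, Matrix.smul_mul, one_mul, Matrix.mul_smul, mul_one, smul_smul] at h1
    have h2 : (μ - c ^ n * τ μ) • gm A = 0 := by rw [sub_smul, h1, sub_self]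
    rcases smul_eq_zero.1 h2 with h3 | h3
    · exact sub_eq_zero.1 h3
    · exfalso
      have h4 := gm_mul_inv A
      rw [h3, zero_mul] at h4
      have h5 := congrFun (congrFun h4 ⟨0, by omega⟩) ⟨0, by omega⟩
      rw [Matrix.zero_apply, Matrix.one_apply_eq] at h5
      exact zero_ne_one h5
  -- `z ^ 2 = 1`
  have hzz : toAut (1 : GU n F q) 1 = toAut A τ * toAut A τ := by
    rw [toAut_one, ← pow_two, ← hz2, pow_orderOf_eq_one]
  rw [toAut_mul] at hzz
  obtain ⟨hττ, ν, hν1, hν⟩ := eq_of_toAut_eq hF hn hzz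
  obtain ⟨k, hk⟩ := hnp.odd_of_ne_two hn2
  by_cases hτ : τ = 1
  · subst hτ
    have h1 : c ^ n = 1 := by
      have h2 : μ * (c ^ n - 1) = 0 := by
        have : c ^ n * μ = μ := hcn.symm
        linear_combination this
      exact sub_eq_zero.1 ((mul_eq_zero.1 h2).resolve_left hμ0)
    have hmap1 : (gm B).map (1 : F ≃+* F) = gm B := by
      ext i j
      rfl
    rw [hmap1] at hc
    have hA2 : gm A * gm A = ν • 1 := by
      rw [mapGU_one, gm_mul, gm_one] at hν
      exact hν
    have hν0 : ν ≠ 0 := by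
      rintro rfl
      rw [zero_mul] at hν1
      exact zero_ne_one hν1
    have hc2 : c * c = 1 := by
      have h2 : gm B * (gm A * gm A) = (c * c) • ((gm A * gm A) * gm B) := by
        rw [← mul_assoc, hc, Matrix.smul_mul, mul_assoc, hc, Matrix.mul_smul, smul_smul, mul_assoc]
      rw [hA2, Matrix.mul_smul, mul_one, Matrix.smul_mul, one_mul, smul_smul] at h2
      have h3 : (ν - c * c * ν) • gm B = 0 := by rw [sub_smul, h2, sub_self]
      rcases smul_eq_zero.1 h3 with h4 | h4
      · have h5 : ν * (c * c - 1) = 0 := by linear_combination -h4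
        exact sub_eq_zero.1 ((mul_eq_zero.1 h5).resolve_left hν0)
      · exfalso
        have h4' := gm_mul_inv B
        rw [h4, zero_mul] at h4'
        have h5 := congrFun (congrFun h4' ⟨0, by omega⟩) ⟨0, by omega⟩
        rw [Matrix.zero_apply, Matrix.one_apply_eq] at h5
        exact zero_ne_one h5
    have hc' : c = 1 := by
      rw [hk, pow_succ, pow_mul, pow_two, hc2, one_pow, one_mul] at h1
      exact h1
    rw [hc', one_smul] at hc
    obtain ⟨t, ht⟩ := scalar_of_comm hnp hn2 hB hirr hc hA2 hν0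
    have h6 : toAut A 1 = 1 := H173.RU.toAut_eq_one_of_scalar hn (c := t) (fun v => by
      rw [ht, Matrix.smul_mulVec, one_mulVec])
    rw [h6, orderOf_one] at hz2
    omega
  · have hτo : orderOf τ = 2 := orderOf_eq_prime (by rw [pow_two]; exact hττ) hτ
    have hτc := H201.PsuGraph.eq_conj hF hτo
    have h1 : τ μ = μ ^ q := by rw [hτc]; rfl
    rw [h1] at hcn
    have h2 : μ * μ = c ^ n := by
      have h3 : μ * μ ^ q = 1 := by rw [← pow_succ', hμ]
      calc μ * μ = c ^ n * μ ^ q * μ := by rw [← hcn]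
        _ = c ^ n * (μ * μ ^ q) := by ring
        _ = c ^ n := by rw [h3, mul_one]
    apply hno (μ * (c ^ k)⁻¹)
    · rw [mul_pow, hμ, one_mul, inv_pow, ← pow_mul, mul_comm, pow_mul, hcq, one_pow, inv_one]
    · have hc0' : c ^ k ≠ 0 := pow_ne_zero _ hc0
      rw [mul_pow, inv_pow, ← pow_mul]
      have h3 : μ ^ n = μ * (μ * μ) ^ k := by
        nth_rw 1 [hk]
        ring
      rw [h3, h2, ← pow_mul, mul_comm k n, mul_assoc, mul_inv_cancel₀ (pow_ne_zero _ hc0), mul_one]

end Cfsg.Agent.H198.ElPsu
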