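import Cfsg.Agent.H198.ElPsu.Field
import Cfsg.Agent.H372.FxPsuA

/-!
# Elliptic configurations in `PSU_n(q)`: primes dividing the order divide `q + 1` (helper198, for S4114)
-/

set_option autoImplicit false
set_option linter.unusedSectionVars false

namespace Cfsg.Agent.H198.ElPsu

open Subgroup Matrix Cfsg Cfsg.Agent.H520
open Cfsg.Agent.LieClassical.HermBasic Cfsg.Agent.LieClassical.HermSiegel
open Cfsg.Agent.ClassicalGeometry.PSUAutCount (gm semiConj toAut toAut_pr herm_gm act_semiConj gm_inj)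
open Cfsg.Agent.ClassicalGeometry.PSUAutBasic (pr pr_surjective pr_eq_one_iff)
open Cfsg.Agent.GpUn (eq_one_of_center comm_of_pr)
open Cfsg.Agent.H173.RU (exists_lift_elt eq_of_pr_eq exists_su)

variable {F : Type} [Field F] [Fintype F] {q n : ℕ}

/-- **Primes dividing `|α|`.** -/
theorem dvd_succ (hF : Fintype.card F = q ^ 2) (hn : 3 ≤ n) {r : ℕ} [hr : Fact r.Prime]
    [hcr : CharP F r] {α : MulAut (PSU n F q)} (h : Cfg α) (hE : EL r α) {p : ℕ} (hp : p.Prime)
    {B : GU n F q} (hy : toAut B 1 ∈ zpowers α) (ho : orderOf (toAut B 1) = p) : p ∣ q + 1 := by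
  by_contra hd
  have hcop : p.Coprime (q + 1) := (Nat.Prime.coprime_iff_not_dvd hp).2 hd
  have hyp : toAut B 1 ^ p = 1 := by rw [← ho]; exact pow_orderOf_eq_one _
  obtain ⟨g, B', hg, -, -, hgB⟩ := exists_su hF hn hcop hyp
  rw [hgB] at hy ho
  have ho' : orderOf (pr n F q g) = p := by
    rw [← ho]
    refine (orderOf_injective (MulAut.conj : PSU n F q →* MulAut (PSU n F q)) ?_ _).symm
    intro a b hab
    exact conj_inj h.center_bot hab
  have hg1 : g ≠ 1 := by
    rintro rfl
    rw [map_one, orderOf_one] at ho'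
    exact hp.one_lt.ne ho'
  by_cases hpr : p = r
  · subst hpr
    have hfix : α (pr n F q g) = pr n F q g := by
      apply fix_of_comm h.center_bot
      exact Cfg.comm_zpowers (mem_zpowers α) hy
    have h1 := hE (zpowers (pr n F q g)) (IsPGroup.of_card (n := 1) (by rw [Nat.card_zpowers, ho', pow_one])) (by
      rintro _ ⟨i, rfl⟩
      refine ⟨i, ?_⟩
      show pr n F q g ^ i = α (pr n F q g ^ i)
      rw [map_zpow, hfix])
    rw [zpowers_eq_bot] at h1
    rw [h1, orderOf_one] at ho'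
    exact hp.one_lt.ne ho'
  · have hpF : (p : F) ≠ 0 := by
      intro h0
      have h1 : r ∣ p := (CharP.cast_eq_zero_iff F r p).1 h0
      exact hpr ((Nat.prime_dvd_prime_iff_eq hr.out hp).1 h1).symm
    obtain ⟨u, j, hj, hu⟩ := H372.FxU.conj_negq hF hp hpF hg hg1
    have h1 : pr n F q u * pr n F q g * (pr n F q u)⁻¹ = pr n F q g ^ j := by
      rw [← map_pow, ← hu, map_mul, map_mul, map_inv]
    have h2 := h.eq_pow hy h1
    have h3 : j ≡ 1 [MOD p] := by
      rw [← ho', ← pow_eq_pow_iff_modEq, pow_one]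
      exact h2
    have h4 : (j : ZMod p) = ((1 : ℕ) : ZMod p) := (ZMod.natCast_eq_natCast_iff j 1 p).2 h3
    apply hd
    rw [← ZMod.natCast_eq_zero_iff]
    push_cast
    rw [hj, Nat.cast_one] at h4
    rw [← h4]
    ring

end Cfsg.Agent.H198.ElPsu
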