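import Cfsg.Prelude.Def_LieTypeChar
import Cfsg.Agent.H198.ElPsu.FieldMain
import Cfsg.Agent.H198.ElPsu.Real
import Cfsg.Agent.H198.ElPsu.NoTwo

/-!
# There are no elliptic configurations in `PSU_n(q)` (helper198, for S4114)

* `el_psu` : `ElRow r G` for the unitary groups in characteristic `r`.
-/

set_option autoImplicit false
set_option linter.unusedSectionVars false

namespace Cfsg.Agent.H198.ElPsu

open Subgroup Matrix Cfsg Cfsg.Agent.H520
open Cfsg.Agent.LieClassical.HermBasic Cfsg.Agent.LieClassical.HermSiegel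
open Cfsg.Agent.ClassicalGeometry.PSUAutCount (gm gm_mul gm_one gm_mul_inv gm_inv_mul semiConj toAut toAut_pr
  herm_gm act_semiConj gm_inj eq_of_toAut_eq sc gm_sc_mul toAut_sc_mul)
open Cfsg.Agent.ClassicalGeometry.PSUAutBasic (pr pr_surjective pr_eq_one_iff)

universe u

variable {F : Type} [Field F] [Fintype F] {q n : ℕ}

theorem card_dvd_psu (hF : Fintype.card F = q ^ 2) (hn : 3 ≤ n) {N : ℕ} (h : N ∣ q * (q ^ 2 - 1)) :
    N ∣ Nat.card (PSU n F q) := by
  rw [← H372.FxU.card_two hF] at h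
  refine h.trans ?_
  have hinj := H372.FxU.inj_emb hF hn (k := 0) (m := 2) (by omega) (by omega)
  exact card_dvd_of_injective _ hinj

theorem six_dvd (hq : 2 ≤ q) : 6 ∣ q * (q ^ 2 - 1) := by
  obtain ⟨k, rfl⟩ : ∃ k, q = k + 1 := ⟨q - 1, by omega⟩
  have h1 : (k + 1) * ((k + 1) ^ 2 - 1) = k * (k + 1) * (k + 2) := by
    have : (k + 1) ^ 2 - 1 = k * (k + 2) := by
      rw [Nat.sub_eq_iff_eq_add (Nat.one_le_pow _ _ (by omega))]
      ring
    rw [this]
    ring
  rw [h1]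
  have h2 : 2 ∣ k * (k + 1) * (k + 2) := Dvd.dvd.mul_right (Nat.even_mul_succ_self k).two_dvd _
  have h3 : 3 ∣ k * (k + 1) * (k + 2) := by
    have : k % 3 = 0 ∨ k % 3 = 1 ∨ k % 3 = 2 := by omega
    rcases this with h | h | h
    · exact Dvd.dvd.mul_right (Dvd.dvd.mul_right (Nat.dvd_of_mod_eq_zero h) _) _
    · exact Dvd.dvd.mul_left (Nat.dvd_of_mod_eq_zero (by omega)) _
    · exact Dvd.dvd.mul_right (Dvd.dvd.mul_left (Nat.dvd_of_mod_eq_zero (by omega)) _) _
  exact Nat.Coprime.mul_dvd_of_dvd_of_dvd (by norm_num : Nat.Coprime 2 3) h2 h3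

/-- odd primes dividing `|α|` -/
theorem prime_cases (hF : Fintype.card F = q ^ 2) (hn : 3 ≤ n) (h32 : ¬ (n = 3 ∧ q = 2)) {r : ℕ}
    [hr : Fact r.Prime] [hcr : CharP F r] {α : MulAut (PSU n F q)} (h : Cfg α) (hE : EL r α) {p : ℕ} (hp : p.Prime)
    (hp2 : p ≠ 2) (hpα : p ∣ orderOf α) : p ∣ q + 1 ∧ (4 ≤ q → n = p ∧ ∃ (B : GU n F q) (μ : F),
      gm B ^ p = μ • 1 ∧ μ ^ (q + 1) = 1 ∧ (∀ ν : F, ν ^ (q + 1) = 1 → ν ^ p ≠ μ) ∧ toAut B 1 ∈ zpowers α) := by
  obtain ⟨y, hy, hyo⟩ := exists_prime_order hp hpα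
  obtain ⟨B, τ, rfl⟩ := ClassicalGeometry.PSUAutMain.exists_toAut hF hn h32 y
  by_cases hτ : τ = 1
  · subst hτ
    have hpq := dvd_succ hF hn h hE hp hy hyo
    refine ⟨hpq, fun h4 => ?_⟩
    have hy1 : toAut B 1 ≠ 1 := by
      intro e
      rw [e, orderOf_one] at hyo
      exact hp.one_lt.ne hyo
    obtain ⟨μ, hμ1, hB⟩ := H173.RU.exists_scalar_pow hF hn (p := p) (A := B) (by
      rw [← hyo]
      exact pow_orderOf_eq_one _)
    have hμ : μ ^ (q + 1) = 1 := by rw [pow_succ', hμ1]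
    by_cases hν : ∃ ν : F, ν ^ (q + 1) = 1 ∧ ν ^ p = μ
    · exfalso
      obtain ⟨ν, hν1, hν2⟩ := hν
      have hi : ν⁻¹ * (ν⁻¹) ^ q = 1 := by rw [← pow_succ', inv_pow, hν1, inv_one]
      have hμ0 : μ ≠ 0 := by
        rintro rfl
        rw [zero_mul] at hμ1
        exact zero_ne_one hμ1
      refine split_false hF hn h4 h hE hp hp2 hpq (B := sc n ⟨ν⁻¹, hi⟩ * B) ?_ ?_ ?_
      · rw [gm_sc_mul, _root_.smul_pow, hB, smul_smul, inv_pow, hν2, inv_mul_cancel₀ hμ0, one_smul]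
      · rw [toAut_sc_mul]
        exact hy
      · rw [toAut_sc_mul]
        exact hy1
    · have hno : ∀ ν : F, ν ^ (q + 1) = 1 → ν ^ p ≠ μ := fun ν h1 h2 => hν ⟨ν, h1, h2⟩
      exact ⟨irr_dim hF hn h4 h hE hp hp2 hpq hB hμ hno hy hy1, B, μ, hB, hμ, hno, hy⟩
  · exact (field_false hF hn h hE hp hp2 hy hyo hτ).elim

/-- **No elliptic configurations in `PSU_n(q)`.** -/
theorem el_main (hF : Fintype.card F = q ^ 2) (hn : 3 ≤ n) (h32 : ¬ (n = 3 ∧ q = 2)) {r : ℕ}
    [hr : Fact r.Prime] [hcr : CharP F r] : ElRow r (PSU n F q) := by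
  intro α h hE
  have hq := two_le hF
  have h6 := card_dvd_psu hF hn (six_dvd hq)
  have h2G : 2 ∣ Nat.card (PSU n F q) := (by norm_num : 2 ∣ 6).trans h6
  have h3G : 3 ∣ Nat.card (PSU n F q) := (by norm_num : 3 ∣ 6).trans h6
  obtain ⟨p, hp, hp2, hpα⟩ := h.exists_prime_ne Nat.prime_two h2G
  obtain ⟨hpq, hrest⟩ := prime_cases hF hn h32 h hE hp hp2 hpα
  by_cases h4 : 4 ≤ q
  · obtain ⟨hnp, B, μ, hB, hμ, hno, hy⟩ := hrest h4
    subst hnp
    have hnG : n ∣ Nat.card (PSU n F q) := by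
      apply card_dvd_psu hF hn
      have : q ^ 2 - 1 = (q + 1) * (q - 1) := by
        have := Nat.sq_sub_sq q 1
        rwa [one_pow] at this
      rw [this]
      exact Dvd.dvd.mul_left (Dvd.dvd.mul_right hpq _) _
    obtain ⟨s, hs, hsn, hsα⟩ := h.exists_prime_ne hp hnG
    by_cases hs2 : s = 2
    · subst hs2
      obtain ⟨z, hz, hz2⟩ := exists_prime_order hs hsα
      exact no_two hF hn h32 hp hpq hB hμ hno hy hz hz2
    · obtain ⟨-, h5⟩ := prime_cases hF hn h32 h hE hs hs2 hsα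
      exact hsn (h5 h4).1.symm
  · -- `q = 2`
    have hp3 : 3 ≤ p := by
      have := hp.two_le
      omega
    have hq2 : q = 2 := by
      have : q = 2 ∨ q = 3 := by omega
      rcases this with h5 | h5
      · exact h5
      · exfalso
        rw [h5] at hpq
        have := (Nat.Prime.dvd_mul hp).1 (show p ∣ 2 * 2 from hpq)
        have h7 : p ∣ 2 := by tauto
        have := Nat.le_of_dvd (by norm_num) h7
        omega
    subst hq2
    have hr2 : r = 2 := by
      obtain ⟨p', j, hp', hch, hq', hj⟩ := exists_prime_pow hF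
      have h1 : p' = 2 := (Nat.prime_dvd_prime_iff_eq hp' Nat.prime_two).1 (by
        rw [hq']; exact dvd_pow_self p' hj.ne')
      subst h1
      exact CharP.eq F hcr hch
    subst hr2
    have h3 : ∀ s : ℕ, s.Prime → s ∣ orderOf α → s = 2 ∨ s = 3 := by
      intro s hs hsα
      by_cases hs2 : s = 2
      · exact Or.inl hs2
      · right
        have h5 := (prime_cases hF hn h32 h hE hs hs2 hsα).1
        exact (Nat.prime_dvd_prime_iff_eq hs Nat.prime_three).1 h5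
    have : Fact (Nat.Prime 3) := ⟨Nat.prime_three⟩
    have h7 := h.two_primes h2G hE (s := 3) h3
    obtain ⟨s, hs, hs3, hsα⟩ := h.exists_prime_ne Nat.prime_three h3G
    rcases h3 s hs hsα with h8 | h8
    · rw [h8] at hsα
      exact h7 hsα
    · exact hs3 h8

/-- **The elliptic row of the unitary groups.** -/
theorem el_psu {r : ℕ} [Fact r.Prime] {G : Type u} [Group G] [Finite G] (h : Cfsg.IsPSUChar r G) : ElRow r G := by
  obtain ⟨F, iF, iFF, iC, n, q, hF, hn, h32, ⟨e⟩⟩ := h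
  exact ElRow.congr e (el_main hF hn h32)

end Cfsg.Agent.H198.ElPsu
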