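import Cfsg.Agent.H183.SemisSU
import Cfsg.Agent.H198.ElPsu.Field

/-!
# Characteristic polynomials of matrices with `M ^ p = μ`, conjugacy in `GU` (helper198, for S4114)
-/

set_option autoImplicit false
set_option linter.unusedSectionVars false

namespace Cfsg.Agent.H198.ElPsu

open Polynomial Matrix Cfsg
open Cfsg.Agent.ClassicalGeometry.PSUAutCount (gm gm_mul gm_one gm_inj gm_mul_inv gm_inv_mul)

section Poly

variable {F : Type*} [Field F] {ι : Type*} [Fintype ι] [DecidableEq ι]

/-- irreducible factors of the characteristic polynomial divide every annihilating polynomial -/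
theorem irr_dvd {M : Matrix ι ι F} {P : F[X]} (hP : aeval M P = 0) {φ : F[X]} (hφ : Irreducible φ)
    (hd : φ ∣ M.charpoly) : φ ∣ P := by
  rcases EuclideanDomain.dvd_or_coprime φ P hφ with h1 | h1
  · exact h1
  · exfalso
    obtain ⟨a, b, hab⟩ := h1
    have h2 := congrArg (aeval M) hab
    rw [map_add, map_mul, map_mul, hP, mul_zero, add_zero, map_one] at h2
    have h3 := H183.Semis.det_aeval_eq_zero M φ hφ hd
    have h4 := congrArg Matrix.det h2
    rw [Matrix.det_mul, h3, mul_zero, Matrix.det_one] at h4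
    exact zero_ne_one h4

/-- a monic polynomial with one irreducible factor -/
theorem eq_pow_of_irr {P : F[X]} (hP : Irreducible P) (hPm : P.Monic) :
    ∀ (k : ℕ) (f : F[X]), f.natDegree = k → f.Monic → (∀ φ : F[X], Irreducible φ → φ ∣ f → φ ∣ P) →
      ∃ m : ℕ, f = P ^ m := by
  intro k
  induction k using Nat.strong_induction_on with
  | _ k ih =>
    intro f hk hf hirr
    by_cases hu : f = 1
    · exact ⟨0, by rw [hu, pow_zero]⟩
    · have hnu : ¬ IsUnit f := fun h => hu (hf.isUnit_iff.1 h)
      obtain ⟨φ, hφm, hφ, hφf⟩ := Polynomial.exists_monic_irreducible_factor f hnu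
      have h1 : φ = P := by
        have h2 := hirr φ hφ hφf
        obtain ⟨c, hc⟩ := h2
        have h3 : IsUnit c := (hP.isUnit_or_isUnit hc).resolve_left hφ.not_isUnit
        have hcm : c.Monic := by
          have : (φ * c).Monic := by rw [← hc]; exact hPm
          exact hφm.of_mul_monic_left this
        rw [hcm.isUnit_iff.1 h3, mul_one] at hc
        exact hc.symm
      subst h1
      obtain ⟨g, rfl⟩ := hφf
      have hg : g.Monic := hφm.of_mul_monic_left hf
      have hdeg : (φ * g).natDegree = φ.natDegree + g.natDegree := hφm.natDegree_mul hg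
      have hpos : 0 < φ.natDegree := hφ.natDegree_pos
      obtain ⟨m, hm⟩ := ih g.natDegree (by omega) g rfl hg (fun ψ hψ hψg => hirr ψ hψ (Dvd.dvd.mul_left hψg _))
      exact ⟨m + 1, by rw [hm, pow_succ']⟩

/-- `charpoly M = (X ^ p - μ) ^ m` -/
theorem charpoly_eq_pow {M : Matrix ι ι F} {p : ℕ} {μ : F} (hM : M ^ p = μ • 1)
    (hirr : Irreducible (X ^ p - C μ : F[X])) (hp : 0 < p) :
    ∃ m : ℕ, Fintype.card ι = p * m ∧ M.charpoly = (X ^ p - C μ) ^ m := by
  have hPm : (X ^ p - C μ : F[X]).Monic := monic_X_pow_sub_C μ hp.ne'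
  have hann : aeval M (X ^ p - C μ : F[X]) = 0 := by
    rw [map_sub, map_pow, aeval_X, aeval_C, hM, Algebra.algebraMap_eq_smul_one, sub_self]
  obtain ⟨m, hm⟩ := eq_pow_of_irr hirr hPm _ M.charpoly rfl M.charpoly_monic (fun φ hφ hd => irr_dvd hann hφ hd)
  refine ⟨m, ?_, hm⟩
  have h1 := congrArg Polynomial.natDegree hm
  rw [Matrix.charpoly_natDegree_eq_dim, hPm.natDegree_pow, natDegree_X_pow_sub_C] at h1
  rw [h1, mul_comm]

/-- a matrix annihilated by a split polynomial has the characteristic polynomial of a diagonal matrix -/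
theorem exists_diag {n : ℕ} {M : Matrix (Fin n) (Fin n) F} {P : F[X]} (hP : aeval M P = 0) (hs : P.Splits)
    (hP0 : P ≠ 0) : ∃ d : Fin n → F, M.charpoly = (diagonal d).charpoly ∧ ∀ i, P.eval (d i) = 0 := by
  have hspl : M.charpoly.Splits := by
    rw [Polynomial.splits_iff_splits]
    right
    intro g hg hd
    have h1 := irr_dvd hP hg hd
    exact (hs.of_dvd hP0 h1).degree_eq_one_of_irreducible hg
  have hmon := M.charpoly_monic
  have h1 : M.charpoly = (M.charpoly.roots.map fun a => X - C a).prod := by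
    have := hspl.eq_prod_roots
    rw [hmon.leadingCoeff, C_1, one_mul] at this
    exact this
  have hcard : Multiset.card M.charpoly.roots = n := by
    rw [← hspl.natDegree_eq_card_roots, Matrix.charpoly_natDegree_eq_dim, Fintype.card_fin]
  obtain ⟨l, hl⟩ := Quot.exists_rep M.charpoly.roots
  have hl' : (l : Multiset F) = M.charpoly.roots := hl
  have hlen : l.length = n := by
    rw [← hcard, ← hl', Multiset.coe_card]
  subst hlen
  refine ⟨fun i => l.get i, ?_, ?_⟩
  · rw [Matrix.charpoly_diagonal, h1, ← hl', Multiset.map_coe, Multiset.prod_coe]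
    have h2 : (List.map (fun a => X - C a) l).prod = (List.ofFn fun i => X - C (l.get i)).prod := by
      congr 1
      conv_lhs => rw [← List.ofFn_get l]
      rw [List.map_ofFn]
      rfl
    rw [h2, List.prod_ofFn]
  · intro i
    have h3 : l.get i ∈ M.charpoly.roots := by
      rw [← hl', Multiset.mem_coe]
      exact List.get_mem l i
    have h4 : (X - C (l.get i)) ∣ M.charpoly := dvd_iff_isRoot.2 (isRoot_of_mem_roots h3)
    exact dvd_iff_isRoot.1 (irr_dvd hP (irreducible_X_sub_C _) h4)

end Poly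

section GU

variable {F : Type*} [Field F] [Fintype F] {q n : ℕ}

open Cfsg.Agent.ClassicalGeometry.GUBasic (mem_GU_iff gu_ext)

/-- elements of `GU` of order prime to the characteristic with the same characteristic polynomial are conjugate -/
theorem exists_gu_conj (hF : Fintype.card F = q ^ 2) {B D : GU n F q} {N : ℕ} (hN0 : (N : F) ≠ 0)
    (hB : gm B ^ N = 1) (hD : gm D ^ N = 1) (hc : (gm B).charpoly = (gm D).charpoly) :
    ∃ M : GU n F q, M * B = D * M := by
  obtain ⟨x, hx⟩ := H183.Semis.similar_of_charpoly (gm B) (gm D) hB hN0 hD hN0 hc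
  obtain ⟨y, hy, hyB⟩ := H186.exists_conj hF (gm B) (gm D) x ((H186.mem_GU_iff_st hF _).1 B.2)
    ((H186.mem_GU_iff_st hF _).1 D.2) x.isUnit hx
  refine ⟨⟨⟨y, H186.st q y, mul_eq_one_comm.1 hy, hy⟩, (H186.mem_GU_iff_st hF _).2 hy⟩, ?_⟩
  apply gm_inj
  exact hyB

end GU

end Cfsg.Agent.H198.ElPsu
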