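import Cfsg.Agent.H198.ElPsu.DiagFull

/-!
# Block diagonal embeddings `SU_m → SU_{mp}` and cyclic monomial matrices (helper198, for S4114)
-/

set_option autoImplicit false
set_option linter.unusedSectionVars false

namespace Cfsg.Agent.H198.ElPsu

open Subgroup Matrix Cfsg
open Cfsg.Agent.LieClassical.HermBasic Cfsg.Agent.LieClassical.HermSiegel
open Cfsg.Agent.ClassicalGeometry.PSUAutCount (gm gm_mul gm_one gm_mul_inv gm_inv_mul herm_gm gm_inj)
open Cfsg.Agent.ClassicalGeometry.GUBasic (guDiag guPerm)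
open scoped Fin.NatCast

variable {F : Type*} [Field F] {q n a m : ℕ}

/-- the block diagonal matrix -/
def blk (e : Fin a × Fin m ≃ Fin n) (g : Matrix (Fin a) (Fin a) F) : Matrix (Fin n) (Fin n) F :=
  (blockDiagonal fun _ : Fin m => g).submatrix e.symm e.symm

theorem blk_mulVec (e : Fin a × Fin m ≃ Fin n) (g : Matrix (Fin a) (Fin a) F) (u : Fin n → F) (l : Fin a) (i : Fin m) :
    (blk e g *ᵥ u) (e (l, i)) = (g *ᵥ fun l' => u (e (l', i))) l := by
  have h1 : (blk e g *ᵥ u) (e (l, i)) = ∑ k : Fin n, blk e g (e (l, i)) k * u k := rfl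
  rw [h1, ← Equiv.sum_comp e, Fintype.sum_prod_type]
  have h2 : (g *ᵥ fun l' => u (e (l', i))) l = ∑ l', g l l' * u (e (l', i)) := rfl
  rw [h2]
  refine Finset.sum_congr rfl fun l' _ => ?_
  rw [Finset.sum_eq_single i]
  · congr 1
    unfold blk
    rw [submatrix_apply, e.symm_apply_apply, e.symm_apply_apply, blockDiagonal_apply_eq]
  · intro i' _ hi
    unfold blk
    rw [submatrix_apply, e.symm_apply_apply, e.symm_apply_apply, blockDiagonal_apply_ne _ _ _ hi.symm, zero_mul]
  · intro h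
    exact absurd (Finset.mem_univ i) h

theorem det_blk (e : Fin a × Fin m ≃ Fin n) (g : Matrix (Fin a) (Fin a) F) : (blk e g).det = g.det ^ m := by
  unfold blk
  rw [det_submatrix_equiv_self, det_blockDiagonal, Finset.prod_const, Finset.card_univ, Fintype.card_fin]

theorem herm_blocks (e : Fin a × Fin m ≃ Fin n) (u v : Fin n → F) :
    hermForm n F q u v = ∑ i : Fin m, hermForm a F q (fun l => u (e (l, i))) (fun l => v (e (l, i))) := by
  rw [herm_def, ← Equiv.sum_comp e, Fintype.sum_prod_type, Finset.sum_comm]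
  rfl

theorem herm_blk (e : Fin a × Fin m ≃ Fin n) {g : Matrix (Fin a) (Fin a) F}
    (hg : ∀ u v, hermForm a F q (g *ᵥ u) (g *ᵥ v) = hermForm a F q u v) (u v : Fin n → F) :
    hermForm n F q (blk e g *ᵥ u) (blk e g *ᵥ v) = hermForm n F q u v := by
  rw [herm_blocks e, herm_blocks e u v]
  refine Finset.sum_congr rfl fun i _ => ?_
  have h1 : ∀ w : Fin n → F, (fun l => (blk e g *ᵥ w) (e (l, i))) = g *ᵥ (fun l => w (e (l, i))) := by
    intro w
    funext l
    rw [blk_mulVec]
  rw [h1, h1, hg]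

theorem blk_one (e : Fin a × Fin m ≃ Fin n) : blk e (1 : Matrix (Fin a) (Fin a) F) = 1 := by
  unfold blk
  have : (blockDiagonal fun _ : Fin m => (1 : Matrix (Fin a) (Fin a) F)) = 1 := blockDiagonal_one
  rw [this, submatrix_one_equiv]

theorem blk_mul (e : Fin a × Fin m ≃ Fin n) (g h : Matrix (Fin a) (Fin a) F) : blk e (g * h) = blk e g * blk e h := by
  unfold blk
  rw [submatrix_mul_equiv, ← blockDiagonal_mul]

theorem blk_smul (e : Fin a × Fin m ≃ Fin n) (c : F) (g : Matrix (Fin a) (Fin a) F) :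
    blk e (c • g) = c • blk e g := by
  unfold blk
  have : (blockDiagonal fun _ : Fin m => c • g) = c • blockDiagonal fun _ : Fin m => g :=
    blockDiagonal_smul c fun _ => g
  rw [this]
  rfl

theorem blk_pow (e : Fin a × Fin m ≃ Fin n) (g : Matrix (Fin a) (Fin a) F) (k : ℕ) : blk e (g ^ k) = blk e g ^ k := by
  induction k with
  | zero => rw [pow_zero, pow_zero, blk_one]
  | succ k ih => rw [pow_succ, pow_succ, blk_mul, ih]

theorem blk_injective (e : Fin a × Fin m ≃ Fin n) (hm : 0 < m) : Function.Injective (blk (F := F) e) := by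
  intro g h hgh
  ext i j
  have h1 := congrFun (congrFun hgh (e (i, ⟨0, hm⟩))) (e (j, ⟨0, hm⟩))
  unfold blk at h1
  rwa [submatrix_apply, submatrix_apply, e.symm_apply_apply, e.symm_apply_apply, blockDiagonal_apply_eq,
    blockDiagonal_apply_eq] at h1

/-- the two factors commute -/
theorem blk_comm (e₁ : Fin a × Fin m ≃ Fin n) (e₂ : Fin m × Fin a ≃ Fin n) (he : ∀ i j, e₂ (i, j) = e₁ (j, i))
    (g : Matrix (Fin a) (Fin a) F) (C : Matrix (Fin m) (Fin m) F) : blk e₂ C * blk e₁ g = blk e₁ g * blk e₂ C := by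
  apply Matrix.ext_of_mulVec_single
  intro k
  generalize (Pi.single k 1 : Fin n → F) = u
  rw [← mulVec_mulVec, ← mulVec_mulVec]
  funext x
  obtain ⟨⟨l, i⟩, rfl⟩ := e₁.surjective x
  have h1 : (blk e₂ C *ᵥ (blk e₁ g *ᵥ u)) (e₁ (l, i)) = ∑ i', C i i' * ∑ l', g l l' * u (e₁ (l', i')) := by
    rw [← he, blk_mulVec]
    show ∑ i', C i i' * (blk e₁ g *ᵥ u) (e₂ (i', l)) = _
    refine Finset.sum_congr rfl fun i' _ => ?_
    rw [he, blk_mulVec]
    rfl
  have h2 : (blk e₁ g *ᵥ (blk e₂ C *ᵥ u)) (e₁ (l, i)) = ∑ l', g l l' * ∑ i', C i i' * u (e₁ (l', i')) := by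
    rw [blk_mulVec]
    show ∑ l', g l l' * (blk e₂ C *ᵥ u) (e₁ (l', i)) = _
    refine Finset.sum_congr rfl fun l' _ => ?_
    rw [← he, blk_mulVec]
    congr 1
    show ∑ i', C i i' * u (e₂ (i', l')) = _
    refine Finset.sum_congr rfl fun i' _ => ?_
    rw [he]
  rw [h1, h2]
  simp only [Finset.mul_sum]
  rw [Finset.sum_comm]
  refine Finset.sum_congr rfl fun l' _ => Finset.sum_congr rfl fun i' _ => ?_
  ring

/-- the embedding -/
def emb (e : Fin a × Fin m ≃ Fin n) : SU a F q →* SU n F q where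
  toFun g := mkSU (blk e (mat g)) (by rw [det_blk, det_mat, one_pow]) (herm_blk e fun u v => herm_act g u v)
  map_one' := mat_injective (blk_one e)
  map_mul' g h := mat_injective (by
    refine (mat_mkSU _ _ _).trans ?_
    refine (congrArg (blk e) (mat_mul g h)).trans ?_
    rw [blk_mul, mat_mul]
    rfl)

theorem mat_emb (e : Fin a × Fin m ≃ Fin n) (g : SU a F q) : mat (emb e g) = blk e (mat g) := mat_mkSU _ _ _

theorem emb_injective (e : Fin a × Fin m ≃ Fin n) (hm : 0 < m) : Function.Injective (emb (F := F) (q := q) e) := by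
  intro g h hgh
  apply mat_injective
  apply blk_injective e hm
  rw [← mat_emb, ← mat_emb, hgh]

/-- **Cyclic monomial matrices.** -/
theorem exists_cyc {p : ℕ} (hp : 0 < p) {μ : F} (hμ : μ ^ (q + 1) = 1) : ∃ C : GU p F q, gm C ^ p = μ • 1 := by
  obtain ⟨k, rfl⟩ : ∃ k, p = k + 1 := ⟨p - 1, by omega⟩
  let c : Fin (k + 1) → F := fun i => if i = 0 then μ else 1
  have hc : ∀ i, c i ^ (q + 1) = 1 := by
    intro i
    by_cases hi : i = 0
    · simp only [c, if_pos hi, hμ]
    · simp only [c, if_neg hi, one_pow]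
  let τ : Equiv.Perm (Fin (k + 1)) := finRotate (k + 1)
  refine ⟨guDiag q c hc * guPerm q τ, ?_⟩
  have hC : gm (guDiag q c hc * guPerm q τ : GU (k + 1) F q) = diagonal c * τ.permMatrix F := rfl
  rw [hC]
  have hact : ∀ u i, ((diagonal c * τ.permMatrix F) *ᵥ u) i = c i * u (τ i) := by
    intro u i
    rw [← mulVec_mulVec, mulVec_diagonal, Matrix.permMatrix_mulVec]
    rfl
  have hpow : ∀ (j : ℕ) (u : Fin (k + 1) → F) (i : Fin (k + 1)), ((diagonal c * τ.permMatrix F) ^ j *ᵥ u) i =
      (∏ l ∈ Finset.range j, c ((τ ^ l) i)) * u ((τ ^ j) i) := by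
    intro j
    induction j with
    | zero => intro u i; rw [pow_zero, one_mulVec, Finset.prod_range_zero, one_mul, pow_zero]; rfl
    | succ j ih =>
      intro u i
      rw [pow_succ', ← mulVec_mulVec, hact, ih, Finset.prod_range_succ']
      have h1 : ∀ l, (τ ^ l) (τ i) = (τ ^ (l + 1)) i := by
        intro l
        rw [pow_succ, Equiv.Perm.mul_apply]
      rw [h1 j, Finset.prod_congr rfl fun l _ => by rw [h1 l], pow_zero, Equiv.Perm.one_apply]
      ring
  have hτ : ∀ (j : ℕ) (i : Fin (k + 1)), (τ ^ j) i = i + (j : Fin (k + 1)) := by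
    intro j
    induction j with
    | zero => intro i; rw [pow_zero, Nat.cast_zero, add_zero]; rfl
    | succ j ih =>
      intro i
      rw [pow_succ', Equiv.Perm.mul_apply, ih]
      show finRotate (k + 1) _ = _
      rw [finRotate_apply, Nat.cast_succ, add_assoc]
  apply Matrix.ext_of_mulVec_single
  intro x
  funext i
  rw [hpow, hτ, Fin.natCast_self, add_zero, Matrix.smul_mulVec, one_mulVec, Pi.smul_apply, smul_eq_mul]
  congr 1
  rw [Finset.prod_range]
  have h1 : ∀ j : Fin (k + 1), c ((τ ^ (j : ℕ)) i) = c ((Equiv.addLeft i) j) := by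
    intro j
    rw [hτ, Fin.cast_val_eq_self]
    rfl
  rw [Finset.prod_congr rfl fun j _ => h1 j, Equiv.prod_comp (Equiv.addLeft i) c]
  simp only [c]
  rw [Finset.prod_ite_eq' Finset.univ (0 : Fin (k + 1)) (fun _ => μ), if_pos (Finset.mem_univ _)]

end Cfsg.Agent.H198.ElPsu
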