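import Cfsg.Agent.H520.CcpCfg
import Cfsg.Agent.SignalizersComponents.Components

/-!
# Quasisimple subgroups of centralizers in elliptic configurations (helper198, for S4114)

* `closure_relem` : a quasisimple group is generated by its `r`-elements if one of them is not central;
* `false_of_qs` : in an elliptic configuration no `1 ≠ x ∈ ⟨α⟩` centralises the image of such a group.
-/

set_option autoImplicit false

namespace Cfsg.Agent.H198.ElPsu

open Subgroup Cfsg Cfsg.Agent.H520 Cfsg.Agent.SignalizersComponents.Components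

theorem closure_relem {L : Type*} [Group L] (hL : IsQuasisimple L) {r : ℕ} {l₀ : L} (h0 : l₀ ∉ center L)
    (hr : ∃ k : ℕ, l₀ ^ r ^ k = 1) : closure {l : L | ∃ k : ℕ, l ^ r ^ k = 1} = ⊤ := by
  have hn : (closure {l : L | ∃ k : ℕ, l ^ r ^ k = 1}).Normal := by
    constructor
    intro n hn g
    induction hn using closure_induction with
    | mem x hx =>
      obtain ⟨k, hk⟩ := hx
      apply Subgroup.subset_closure
      refine ⟨k, ?_⟩
      rw [conj_pow, hk]
      group
    | one =>
      rw [mul_one, mul_inv_cancel]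
      exact one_mem _
    | mul x y _ _ hx hy =>
      have : g * (x * y) * g⁻¹ = (g * x * g⁻¹) * (g * y * g⁻¹) := by group
      rw [this]
      exact mul_mem hx hy
    | inv x _ hx =>
      have : g * x⁻¹ * g⁻¹ = (g * x * g⁻¹)⁻¹ := by group
      rw [this]
      exact inv_mem hx
  rcases quasisimple_normal hL _ hn with h | h
  · exact h
  · exact absurd (h (Subgroup.subset_closure hr)) h0

theorem false_of_qs {G : Type*} [Group G] [Finite G] {α : MulAut G} (h : Cfg α) {r : ℕ} [hr : Fact r.Prime]
    (hE : EL r α) {x : MulAut G} (hx : x ∈ zpowers α) (hx1 : x ≠ 1) {L : Type*} [Group L] (hL : IsQuasisimple L)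
    {l₀ : L} (h0 : l₀ ∉ center L) (hlr : ∃ k : ℕ, l₀ ^ r ^ k = 1) (f : L →* G) (hf : ∃ l, f l ≠ 1)
    (hfix : ∀ l, x (f l) = f l) : False := by
  refine h.el_false_hom hE hx hx1 f hfix (closure_relem hL h0 hlr) ?_
  have h1 : Group.IsPerfect L := quasisimple_isPerfect hL
  have h2 : Group.IsPerfect ↥f.range := Group.IsPerfect.ofSurjective (f := f.rangeRestrict) f.rangeRestrict_surjective
  have h3 : Nontrivial ↥f.range := by
    obtain ⟨l, hl⟩ := hf
    exact ⟨⟨⟨f l, l, rfl⟩, 1, fun h4 => hl (congrArg Subtype.val h4)⟩⟩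
  exact Group.IsPerfect.not_isSolvable ↥f.range

end Cfsg.Agent.H198.ElPsu
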