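import Cfsg.Agent.H880.ClPsuC
import Cfsg.Agent.S0280
import Cfsg.Agent.S0281
import Cfsg.Agent.H198.ElPsu.Field

/-!
# A noncentral unipotent element of `SU_2(q)` (helper198, for S4114)
-/

set_option autoImplicit false
set_option linter.unusedSectionVars false

namespace Cfsg.Agent.H198.ElPsu

open Subgroup Matrix Cfsg Cfsg.Agent.LieClassical.HermBasic

theorem exists_unip {F : Type} [Field F] [Fintype F] {q : ℕ} (hF : Fintype.card F = q ^ 2) (r : ℕ)
    [hr : Fact r.Prime] [hcr : CharP F r] :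
    ∃ l : SU 2 F q, l ∉ center (SU 2 F q) ∧ ∃ k : ℕ, l ^ r ^ k = 1 := by
  obtain ⟨K, hK1, hK2, hK3⟩ := Cfsg.Agent.S0280.exists_field hF
  obtain ⟨e⟩ : Nonempty (SU 2 F q ≃* SpecialLinearGroup (Fin 2) K) := Cfsg.Agent.S0281.result hF hK3
  obtain ⟨p, j, hp, hch, hq, hj⟩ := exists_prime_pow hF
  have hpr : p = r := CharP.eq F hch hcr
  subst hpr
  let t : SpecialLinearGroup (Fin 2) K := ⟨!![1, 1; 0, 1], by rw [Matrix.det_fin_two_of]; ring⟩
  have ht : ∀ m : ℕ, ((t ^ m : SpecialLinearGroup (Fin 2) K) : Matrix (Fin 2) (Fin 2) K) = !![1, (m : K); 0, 1] := by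
    intro m
    induction m with
    | zero =>
      rw [pow_zero]
      ext i j
      fin_cases i <;> fin_cases j <;> simp
    | succ m ih =>
      have h1 : ((t ^ (m + 1) : SpecialLinearGroup (Fin 2) K) : Matrix (Fin 2) (Fin 2) K) =
          ((t ^ m : SpecialLinearGroup (Fin 2) K) : Matrix (Fin 2) (Fin 2) K) * !![1, 1; 0, 1] := by
        rw [pow_succ]
        rfl
      rw [h1, ih]
      rw [Matrix.mul_fin_two]
      ext i j
      fin_cases i <;> fin_cases j <;> simp [add_comm]
  have hq0 : (q : K) = 0 := by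
    rw [← hK3]
    exact FiniteField.cast_card_eq_zero K
  refine ⟨e.symm t, ?_, j, ?_⟩
  · intro hc
    have hc' : t ∈ center (SpecialLinearGroup (Fin 2) K) := by
      rw [mem_center_iff] at hc ⊢
      intro g
      have := congrArg e (hc (e.symm g))
      simpa using this
    rw [Matrix.SpecialLinearGroup.mem_center_iff] at hc'
    obtain ⟨c, -, hc2⟩ := hc'
    have h1 := congrFun (congrFun hc2 0) 1
    simp [t] at h1
  · rw [← map_pow, ← hq]
    have h1 : t ^ q = 1 := by
      apply Subtype.ext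
      have := ht q
      rw [hq0] at this
      rw [this]
      ext i j
      fin_cases i <;> fin_cases j <;> simp
    rw [h1, map_one]

end Cfsg.Agent.H198.ElPsu
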